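import Cfsg.Agent.SmallGroups.Basic
import Cfsg.Agent.TwoGroups.Recognition

/-!
# Local structure of a simple group of order 168
-/

set_option autoImplicit false
set_option linter.unusedSectionVars false
set_option linter.style.haveILetI false

namespace Cfsg.Agent.SmallGroups.Order168

open Subgroup SmallGroups

variable {G : Type*} [Group G] [Finite G] [IsSimpleGroup G]

instance instFactPrimeSeven : Fact (Nat.Prime 7) := ⟨by norm_num⟩

variable (h : Nat.card G = 168)
include h

theorem not_comm : ¬ IsMulCommutative G := not_isMulCommutative (by rw [h]; norm_num)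

theorem card_two (T : Sylow 2 G) : Nat.card ↥(T : Subgroup G) = 8 :=
  card_sylow_subgroup (a := 3) (m := 21) (by rw [h]; norm_num) (by norm_num) T

theorem card_three (P : Sylow 3 G) : Nat.card ↥(P : Subgroup G) = 3 :=
  card_sylow_subgroup (a := 1) (m := 56) (by rw [h]; norm_num) (by norm_num) P

theorem card_seven (P : Sylow 7 G) : Nat.card ↥(P : Subgroup G) = 7 :=
  card_sylow_subgroup (a := 1) (m := 24) (by rw [h]; norm_num) (by norm_num) P

theorem card_sylow_seven : Nat.card (Sylow 7 G) = 8 := by
  have h1 := card_sylow_mem (not_comm h) (p := 7) (a := 0) (m := 24) (by rw [h]; norm_num) (by norm_num)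
  rw [show ((24 : ℕ).divisors.filter fun n => n % 7 = 1 ∧ 1 < n) = {8} by decide] at h1
  simpa using h1

theorem card_normalizer_seven (P : Sylow 7 G) :
    Nat.card ↥(normalizer ((P : Subgroup G) : Set G)) = 21 := by
  have := card_sylow_mul_card_normalizer P
  rw [card_sylow_seven h, h] at this
  omega

theorem centralizer_seven (P : Sylow 7 G) :
    centralizer ((P : Subgroup G) : Set G) = (P : Subgroup G) := by
  have := isMulCommutative_of_prime_card (G := ↥(P : Subgroup G))
    (by rw [card_seven h P]; norm_num)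
  obtain ⟨hk, hk1⟩ := relIndex_centralizer_prime (not_comm h) P (card_seven h P)
  have hCN : centralizer ((P : Subgroup G) : Set G) ≤ normalizer ((P : Subgroup G) : Set G) :=
    Subgroup.centralizer_le_normalizer _
  have hmul : Nat.card ↥(centralizer ((P : Subgroup G) : Set G)) *
      (centralizer ((P : Subgroup G) : Set G)).relIndex (normalizer ((P : Subgroup G) : Set G)) = 21 := by
    rw [← card_normalizer_seven h P]
    have := Subgroup.relIndex_mul_relIndex (⊥ : Subgroup G) _ _ bot_le hCN
    rwa [relIndex_bot_left, relIndex_bot_left] at this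
  have h7 : 7 ∣ Nat.card ↥(centralizer ((P : Subgroup G) : Set G)) :=
    (card_seven h P).symm.dvd.trans (Subgroup.card_dvd_of_le (P : Subgroup G).le_centralizer)
  refine (Subgroup.eq_of_le_of_card_ge (P : Subgroup G).le_centralizer ?_).symm
  rw [card_seven h P]
  obtain ⟨c, hc⟩ := h7
  rw [hc] at hmul ⊢
  have hk6 : (centralizer ((P : Subgroup G) : Set G)).relIndex
      (normalizer ((P : Subgroup G) : Set G)) ≤ 6 := Nat.le_of_dvd (by norm_num) hk
  interval_cases hk' : (centralizer ((P : Subgroup G) : Set G)).relIndex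
      (normalizer ((P : Subgroup G) : Set G)) <;> omega

theorem card_sylow_three : Nat.card (Sylow 3 G) = 28 := by
  have h1 := card_sylow_mem (not_comm h) (p := 3) (a := 0) (m := 56) (by rw [h]; norm_num) (by norm_num)
  rw [show ((56 : ℕ).divisors.filter fun n => n % 3 = 1 ∧ 1 < n) = {4, 7, 28} by decide] at h1
  simp only [Finset.mem_insert, Finset.mem_singleton] at h1
  rcases h1 with h1 | h1 | h1
  · exfalso
    have h2 := two_mul_card_dvd_factorial_card_sylow (not_comm h) (p := 3) (by rw [h]; norm_num)
    rw [h1, h] at h2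
    norm_num [Nat.factorial] at h2
  · exfalso
    obtain ⟨P⟩ := (inferInstance : Nonempty (Sylow 7 G))
    set N := normalizer ((P : Subgroup G) : Set G) with hN
    have hNc : Nat.card ↥N = 21 := card_normalizer_seven h P
    have hnN : Nat.card (Sylow 3 ↥N) = 7 := by
      have h2 := card_sylow_dvd (G := ↥N) (p := 3) (a := 1) (m := 7) (by rw [hNc]; norm_num)
      refine ((Nat.dvd_prime (by norm_num)).mp h2).resolve_left fun h3 => ?_
      have : Subsingleton (Sylow 3 ↥N) := (Nat.card_eq_one_iff_unique.mp h3).1
      let R : Sylow 3 ↥N := default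
      have hRn : (R : Subgroup ↥N).Normal := R.normal_of_subsingleton
      have hPn : ((P : Subgroup G).subgroupOf N).Normal :=
        (Subgroup.normal_subgroupOf_iff_le_normalizer Subgroup.le_normalizer).mpr le_rfl
      have hR : Nat.card ↥(R : Subgroup ↥N) = 3 :=
        card_sylow_subgroup (a := 1) (m := 7) (by rw [hNc]; norm_num) (by norm_num) R
      have hP : Nat.card ↥((P : Subgroup G).subgroupOf N) = 7 := by
        rw [Nat.card_congr (Subgroup.subgroupOfEquivOfLe Subgroup.le_normalizer).toEquiv, card_seven h P]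
      have hdisj : Disjoint ((P : Subgroup G).subgroupOf N) (R : Subgroup ↥N) :=
        Subgroup.disjoint_of_coprime_natCard (by rw [hP, hR]; norm_num)
      obtain ⟨r, hr⟩ := exists_prime_orderOf_dvd_card' (G := ↥(R : Subgroup ↥N)) 3 (by rw [hR])
      have hrC : ((r : ↥N) : G) ∈ centralizer ((P : Subgroup G) : Set G) := by
        intro y hy
        exact congrArg Subtype.val (Subgroup.commute_of_normal_of_disjoint _ _ hPn hRn hdisj
          ⟨y, Subgroup.le_normalizer hy⟩ r hy r.2).eq
      rw [centralizer_seven h P] at hrC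
      have h4 := Subgroup.orderOf_dvd_natCard _ hrC
      rw [card_seven h P, Subgroup.orderOf_coe, Subgroup.orderOf_coe, hr] at h4
      omega
    have hsyl3N : ∀ R : Sylow 3 ↥N, Nat.card ↥(R : Subgroup ↥N) = 3 := fun R =>
      card_sylow_subgroup (a := 1) (m := 7) (by rw [hNc]; norm_num) (by norm_num) R
    have hexist : ∀ R : Sylow 3 ↥N, ∃ S : Sylow 3 G, (S : Subgroup G) = (R : Subgroup ↥N).map N.subtype := by
      intro R
      obtain ⟨S, hS⟩ := (R.2.map N.subtype).exists_le_sylow
      refine ⟨S, (Subgroup.eq_of_le_of_card_ge hS ?_).symm⟩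
      rw [← Nat.card_congr ((R : Subgroup ↥N).equivMapOfInjective _ N.subtype_injective).toEquiv,
        hsyl3N R, card_three h S]
    choose F hF using hexist
    have hFinj : Function.Injective F := fun a b hab => by
      have := hF a
      rw [hab, hF b] at this
      exact Sylow.ext (Subgroup.map_injective N.subtype_injective this).symm
    have hFbij : Function.Bijective F :=
      (Nat.bijective_iff_injective_and_card _).mpr ⟨hFinj, hnN.trans h1.symm⟩
    have hall : ∀ S : Sylow 3 G, (S : Subgroup G) ≤ N := by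
      intro S
      obtain ⟨R, rfl⟩ := hFbij.2 S
      rw [hF R]
      exact Subgroup.map_subtype_le _
    have hn : (⨆ S : Sylow 3 G, (S : Subgroup G)).Normal := by
      refine ⟨fun x hx g => ?_⟩
      refine Subgroup.iSup_induction (fun S : Sylow 3 G => (S : Subgroup G))
        (C := fun y => g * y * g⁻¹ ∈ ⨆ S : Sylow 3 G, (S : Subgroup G)) hx ?_ ?_ ?_
      · intro S y hy
        exact Subgroup.mem_iSup_of_mem (g • S) ⟨y, hy, rfl⟩
      · simp
      · intro a b ha hb
        rw [show g * (a * b) * g⁻¹ = (g * a * g⁻¹) * (g * b * g⁻¹) by group]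
        exact mul_mem ha hb
    obtain ⟨S₀⟩ := (inferInstance : Nonempty (Sylow 3 G))
    have htop := eq_top_of_normal hn (fun hb => S₀.ne_bot_of_dvd_card (by rw [h]; norm_num)
      (le_bot_iff.mp (hb ▸ le_iSup (fun S : Sylow 3 G => (S : Subgroup G)) S₀)))
    have : N = ⊤ := top_le_iff.mp (htop ▸ iSup_le hall)
    rw [this, Subgroup.card_top, h] at hNc
    omega
  · exact h1

theorem card_normalizer_three (P : Sylow 3 G) :
    Nat.card ↥(normalizer ((P : Subgroup G) : Set G)) = 6 := by
  have := card_sylow_mul_card_normalizer P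
  rw [card_sylow_three h, h] at this
  omega

theorem centralizer_three (P : Sylow 3 G) :
    centralizer ((P : Subgroup G) : Set G) = (P : Subgroup G) := by
  have := isMulCommutative_of_prime_card (G := ↥(P : Subgroup G))
    (by rw [card_three h P]; norm_num)
  obtain ⟨hk, hk1⟩ := relIndex_centralizer_prime (not_comm h) P (card_three h P)
  have hk2 := ((Nat.dvd_prime Nat.prime_two).mp (by simpa using hk)).resolve_left hk1
  have hmul := Subgroup.relIndex_mul_relIndex (⊥ : Subgroup G) _ _ bot_le
    (Subgroup.centralizer_le_normalizer ((P : Subgroup G) : Set G))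
  rw [relIndex_bot_left, relIndex_bot_left, hk2, card_normalizer_three h P] at hmul
  exact (Subgroup.eq_of_le_of_card_ge (P : Subgroup G).le_centralizer (by rw [card_three h P]; omega)).symm

/-- An element commuting with an element of order `3` lies in the subgroup it generates. -/
theorem commute_three {x y : G} (hx : orderOf x = 3) (hc : Commute x y) : y ∈ zpowers x := by
  obtain ⟨P, hP⟩ := (IsPGroup.of_card (p := 3) (n := 1) (by rw [Nat.card_zpowers, hx, pow_one] :
    Nat.card ↥(zpowers x) = 3 ^ 1)).exists_le_sylow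
  have hPx : zpowers x = (P : Subgroup G) :=
    Subgroup.eq_of_le_of_card_ge hP (by rw [card_three h P, Nat.card_zpowers, hx])
  rw [hPx, ← centralizer_three h P, ← hPx]
  intro z hz
  obtain ⟨i, rfl⟩ := Subgroup.mem_zpowers_iff.mp hz
  exact (hc.zpow_left i).eq

theorem commute_seven {x y : G} (hx : orderOf x = 7) (hc : Commute x y) : y ∈ zpowers x := by
  obtain ⟨P, hP⟩ := (IsPGroup.of_card (p := 7) (n := 1) (by rw [Nat.card_zpowers, hx, pow_one] :
    Nat.card ↥(zpowers x) = 7 ^ 1)).exists_le_sylow
  have hPx : zpowers x = (P : Subgroup G) :=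
    Subgroup.eq_of_le_of_card_ge hP (by rw [card_seven h P, Nat.card_zpowers, hx])
  rw [hPx, ← centralizer_seven h P, ← hPx]
  intro z hz
  obtain ⟨i, rfl⟩ := Subgroup.mem_zpowers_iff.mp hz
  exact (hc.zpow_left i).eq

/-- Every element is of order `3`, of order `7`, or a `2`-element. -/
theorem orderOf_cases (g : G) : orderOf g = 3 ∨ orderOf g = 7 ∨ orderOf g ∣ 8 := by
  have hd : orderOf g ∣ 168 := h ▸ orderOf_dvd_natCard g
  have key : ∀ (p : ℕ), p.Prime → (∀ {x y : G}, orderOf x = p → Commute x y → y ∈ zpowers x) →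
      p ∣ orderOf g → orderOf g = p := by
    intro p hp hcomm hpd
    have hx : orderOf (g ^ (orderOf g / p)) = p := orderOf_pow_orderOf_div (orderOf_pos g).ne' hpd
    have hm := hcomm hx ((Commute.refl g).pow_left _)
    have := orderOf_dvd_of_mem_zpowers hm
    rw [hx] at this
    rcases (Nat.dvd_prime hp).mp this with h1 | h1
    · exact absurd (h1 ▸ hpd) (fun h2 => hp.ne_one (Nat.dvd_one.mp h2))
    · exact h1
  by_cases h3 : 3 ∣ orderOf g
  · exact .inl (key 3 Nat.prime_three (fun hx hc => commute_three h hx hc) h3)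
  by_cases h7 : 7 ∣ orderOf g
  · exact .inr (.inl (key 7 (by norm_num) (fun hx hc => commute_seven h hx hc) h7))
  refine .inr (.inr ?_)
  have hcop : Nat.Coprime (orderOf g) 21 := by
    rw [show 21 = 3 * 7 from rfl]
    exact Nat.Coprime.mul_right (Nat.Coprime.symm (Nat.prime_three.coprime_iff_not_dvd.mpr h3))
      (Nat.Coprime.symm ((show Nat.Prime 7 by norm_num).coprime_iff_not_dvd.mpr h7))
  exact hcop.dvd_of_dvd_mul_right (show orderOf g ∣ 8 * 21 from hd)

/-- No element of order `3` normalizes a Sylow `2`-subgroup. -/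
theorem normalizer_two (T : Sylow 2 G) :
    normalizer ((T : Subgroup G) : Set G) = (T : Subgroup G) := by
  refine (Subgroup.eq_of_le_of_card_ge Subgroup.le_normalizer ?_).symm
  have h8 : 8 ∣ Nat.card ↥(normalizer ((T : Subgroup G) : Set G)) :=
    (card_two h T).symm.dvd.trans (Subgroup.card_dvd_of_le Subgroup.le_normalizer)
  have hn : Nat.card (Sylow 2 G) ∈ (21 : ℕ).divisors.filter fun n => n % 2 = 1 ∧ 1 < n :=
    card_sylow_mem (not_comm h) (p := 2) (a := 2) (by rw [h]; norm_num) (by norm_num)
  have hmul := card_sylow_mul_card_normalizer T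
  rw [show ((21 : ℕ).divisors.filter fun n => n % 2 = 1 ∧ 1 < n) = {3, 7, 21} by decide] at hn
  simp only [Finset.mem_insert, Finset.mem_singleton] at hn
  rw [card_two h T]
  rcases hn with hn | hn | hn <;> rw [hn, h] at hmul
  · exfalso
    have h2 := two_mul_card_dvd_factorial_card_sylow (not_comm h) (p := 2) (by rw [h]; norm_num)
    rw [hn, h] at h2
    norm_num [Nat.factorial] at h2
  · exfalso
    have h24 : Nat.card ↥(normalizer ((T : Subgroup G) : Set G)) = 24 := by omega
    obtain ⟨u, hu⟩ := exists_prime_orderOf_dvd_card'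
      (G := ↥(normalizer ((T : Subgroup G) : Set G))) 3 (by rw [h24]; norm_num)
    rw [← Subgroup.orderOf_coe] at hu
    set U : Subgroup ↥(normalizer ((T : Subgroup G) : Set G)) := zpowers u
    have hU : IsPGroup 3 ↥U := IsPGroup.of_card (n := 1) (by
      rw [Nat.card_zpowers, ← Subgroup.orderOf_coe, hu, pow_one])
    letI : MulDistribMulAction ↥U ↥(T : Subgroup G) :=
      MulDistribMulAction.compHom _ ((T : Subgroup G).normalizerMonoidHom.comp U.subtype)
    have hmod := hU.card_modEq_card_fixedPoints ↥(T : Subgroup G)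
    have hfix : MulAction.fixedPoints ↥U ↥(T : Subgroup G) = {1} := by
      ext t
      simp only [Set.mem_singleton_iff]
      refine ⟨fun ht => ?_, fun ht m => ht ▸ smul_one m⟩
      have h1 : (u : G) * (t : G) * (u : G)⁻¹ = (t : G) :=
        congrArg Subtype.val (ht ⟨u, mem_zpowers u⟩)
      have hmem := commute_three h hu (show Commute (u : G) (t : G) from mul_inv_eq_iff_eq_mul.mp h1)
      have h3 := orderOf_dvd_of_mem_zpowers hmem
      have h2 := Subgroup.orderOf_dvd_natCard _ t.2
      rw [hu] at h3
      rw [card_two h T] at h2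
      exact Subtype.ext (orderOf_eq_one_iff.mp (Nat.eq_one_of_dvd_coprimes (by norm_num) h3 h2))
    rw [card_two h T, hfix, Nat.card_eq_fintype_card] at hmod
    simp [Nat.ModEq] at hmod
  · omega

theorem card_sylow_two : Nat.card (Sylow 2 G) = 21 := by
  obtain ⟨T⟩ := (inferInstance : Nonempty (Sylow 2 G))
  have := card_sylow_mul_card_normalizer T
  rw [normalizer_two h T, card_two h T, h] at this
  omega

theorem not_comm_two (T : Sylow 2 G) : ¬ IsMulCommutative ↥(T : Subgroup G) := fun hc =>
  not_normalizer_le_centralizer (not_comm h) (by rw [h]; norm_num) T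
    ((normalizer_two h T).le.trans (T : Subgroup G).le_centralizer)

/-- A non-trivial element commuting with a whole Sylow `2`-subgroup `T` has centralizer `T`. -/
theorem centralizer_central (T : Sylow 2 G) {z : G} (hz : z ∈ (T : Subgroup G)) (hne : z ≠ 1)
    (hcent : ∀ t ∈ (T : Subgroup G), t * z = z * t) : centralizer ({z} : Set G) = (T : Subgroup G) := by
  have hle : (T : Subgroup G) ≤ centralizer ({z} : Set G) := fun t ht =>
    mem_centralizer_singleton_iff.mpr (hcent t ht)
  refine (T.3 (fun c => ?_) hle)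
  have hno : ∀ {p : ℕ}, p.Prime → Odd p → orderOf (c : G) = p →
      (∀ {x y : G}, orderOf x = p → Commute x y → y ∈ zpowers x) → False := by
    intro p hp hodd hord hcomm
    have hm := hcomm hord (show Commute (c : G) z from mem_centralizer_singleton_iff.mp c.2)
    have h1 := orderOf_dvd_of_mem_zpowers hm
    have h2 := Subgroup.orderOf_dvd_natCard _ hz
    rw [hord] at h1
    rw [card_two h T] at h2
    refine hne (orderOf_eq_one_iff.mp (Nat.eq_one_of_dvd_coprimes ?_ h1 h2))
    exact Nat.Coprime.pow_right 3 (Nat.coprime_two_right.mpr hodd)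
  rcases orderOf_cases h (c : G) with h3 | h7 | h8
  · exact (hno Nat.prime_three (by decide) h3 (fun hx hc => commute_three h hx hc)).elim
  · exact (hno (by norm_num) (by decide) h7 (fun hx hc => commute_seven h hx hc)).elim
  · obtain ⟨k, -, hk⟩ := (Nat.dvd_prime_pow Nat.prime_two (m := 3)).mp (by simpa using h8)
    exact ⟨k, by rw [← hk, pow_orderOf_eq_one]⟩

theorem exists_central (T : Sylow 2 G) : ∃ z : G, z ∈ (T : Subgroup G) ∧ z ≠ 1 ∧ orderOf z = 2 ∧
    ∀ t ∈ (T : Subgroup G), t * z = z * t := by
  have : Nontrivial ↥(T : Subgroup G) := Finite.one_lt_card_iff_nontrivial.mp (by rw [card_two h T]; norm_num)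
  have hnt := T.2.center_nontrivial
  have h2 : 2 ∣ Nat.card ↥(center ↥(T : Subgroup G)) := by
    obtain ⟨k, hk⟩ := (T.2.to_subgroup (center ↥(T : Subgroup G))).exists_card_eq
    rcases k with _ | k
    · rw [pow_zero] at hk
      exact absurd hk (ne_of_gt (Finite.one_lt_card_iff_nontrivial.mpr hnt))
    · rw [hk]; exact dvd_pow_self 2 (Nat.succ_ne_zero k)
  obtain ⟨c, hc⟩ := exists_prime_orderOf_dvd_card' (G := ↥(center ↥(T : Subgroup G))) 2 h2
  refine ⟨((c : ↥(T : Subgroup G)) : G), (c : ↥(T : Subgroup G)).2, ?_,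
    by rw [Subgroup.orderOf_coe, Subgroup.orderOf_coe, hc], fun t ht => ?_⟩
  · intro h1
    have : c = 1 := Subtype.ext (Subtype.ext h1)
    rw [this, orderOf_one] at hc
    omega
  · exact congrArg Subtype.val (Subgroup.mem_center_iff.mp c.2 ⟨t, ht⟩)

theorem exists_orderOf_four (T : Sylow 2 G) : ∃ x ∈ (T : Subgroup G), orderOf x = 4 := by
  by_contra hcon
  push Not at hcon
  refine not_comm_two h T ⟨⟨fun a b => ?_⟩⟩
  have hsq : ∀ a : ↥(T : Subgroup G), a * a = 1 := by
    intro a
    have hd : orderOf a ∣ 2 ^ 3 := by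
      have := orderOf_dvd_natCard a; rwa [card_two h T] at this
    obtain ⟨i, hi, ha⟩ := (Nat.dvd_prime_pow Nat.prime_two).mp hd
    have h4 := hcon (a : G) a.2
    rw [Subgroup.orderOf_coe] at h4
    interval_cases i
    · rw [orderOf_eq_one_iff.mp ha, one_mul]
    · rw [← pow_two]; exact orderOf_dvd_iff_pow_eq_one.mp (by rw [ha]; norm_num)
    · exact absurd ha h4
    · refine absurd ?_ (not_comm_two h T)
      have hc : IsCyclic ↥(T : Subgroup G) := isCyclic_of_orderOf_eq_card a (by rw [ha, card_two h T]; norm_num)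
      exact hc.isMulCommutative
  calc a * b = (b * a)⁻¹ * ((b * a) * (a * b)) := by group
    _ = (b * a)⁻¹ := by
      rw [show (b * a) * (a * b) = b * (a * a) * b by group, hsq, mul_one, hsq, mul_one]
    _ = b * a := inv_eq_of_mul_eq_one_right (hsq _)

end Cfsg.Agent.SmallGroups.Order168
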