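import Cfsg.Agent.SmallGroups.Order168

/-!
# Element classes, Klein subgroups and subgroups of a simple group of order 168
-/

set_option autoImplicit false
set_option linter.unusedSectionVars false

namespace Cfsg.Agent.SmallGroups.Order168

open Subgroup SmallGroups

variable {G : Type*} [Group G] [Finite G] [IsSimpleGroup G]
variable (h : Nat.card G = 168)
include h

theorem eq_sylow_of_card_eight (T : Sylow 2 G) {H : Subgroup G} (hle : H ≤ (T : Subgroup G))
    (hc : 4 < Nat.card ↥H) : H = (T : Subgroup G) := by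
  refine Subgroup.eq_of_le_of_card_ge hle ?_
  have h1 := card_two h T ▸ Subgroup.card_dvd_of_le hle
  have h2 := Nat.le_of_dvd (by norm_num) h1
  rw [card_two h T]
  interval_cases Nat.card ↥H <;> omega

/-- Commuting elements generating more than four elements of `T` do not exist. -/
theorem mem_zpowers_of_commute (T : Sylow 2 G) {x a : G} (hx : x ∈ (T : Subgroup G))
    (hx4 : orderOf x = 4) (ha : a ∈ (T : Subgroup G)) (hc : Commute x a) : a ∈ zpowers x := by
  by_contra hmem
  have hcomm : IsMulCommutative ↥(closure ({x, a} : Set G)) := by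
    refine Subgroup.isMulCommutative_closure ?_
    intro u hu v hv
    simp only [Set.mem_insert_iff, Set.mem_singleton_iff] at hu hv
    rcases hu with rfl | rfl <;> rcases hv with rfl | rfl <;> first | rfl | exact hc | exact hc.symm
  have hle : closure ({x, a} : Set G) ≤ (T : Subgroup G) := by
    rw [closure_le]
    intro u hu
    simp only [Set.mem_insert_iff, Set.mem_singleton_iff] at hu
    rcases hu with rfl | rfl <;> assumption
  have hlt : zpowers x < closure ({x, a} : Set G) :=
    lt_of_le_of_ne (zpowers_le.mpr (subset_closure (by simp)))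
      (fun he => hmem (he.symm ▸ subset_closure (by simp)))
  have h4 : 4 < Nat.card ↥(closure ({x, a} : Set G)) := by
    by_contra hle4
    exact hlt.ne (Subgroup.eq_of_le_of_card_ge hlt.le (by rw [Nat.card_zpowers, hx4]; omega))
  rw [eq_sylow_of_card_eight h T hle h4] at hcomm
  exact not_comm_two h T hcomm

theorem sq_eq_central (T : Sylow 2 G) {x z : G} (hx : x ∈ (T : Subgroup G)) (hx4 : orderOf x = 4)
    (hz : z ∈ (T : Subgroup G)) (hne : z ≠ 1) (hcent : ∀ t ∈ (T : Subgroup G), t * z = z * t) :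
    x * x = z := by
  have hm := mem_zpowers_of_commute h T hx hx4 hz (hcent x hx)
  obtain ⟨i, rfl⟩ := Subgroup.mem_zpowers_iff.mp hm
  obtain ⟨u, hu⟩ := exists_central h T
  by_contra hne2
  -- then `x ^ i` generates `⟨x⟩`, so `x` would be central
  have hmod : i % 4 = 1 ∨ i % 4 = 3 := by
    rcases (by omega : i % 4 = 0 ∨ i % 4 = 1 ∨ i % 4 = 2 ∨ i % 4 = 3) with hi | hi | hi | hi
    · exfalso; apply hne; rw [← zpow_mod_orderOf, hx4, Nat.cast_ofNat, hi, zpow_zero]
    · exact .inl hi
    · exfalso; apply hne2; rw [← zpow_mod_orderOf x i, hx4, Nat.cast_ofNat, hi, zpow_two]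
    · exact .inr hi
  have hxx : x = (x ^ i) ^ i := by
    rw [← zpow_mul, ← zpow_mod_orderOf, hx4, Int.mul_emod]
    rcases hmod with hi | hi <;> simp [hi]
  refine not_comm_two h T ⟨⟨fun a b => ?_⟩⟩
  have hxc : ∀ t ∈ (T : Subgroup G), Commute t x := fun t ht => by
    rw [hxx]; exact Commute.zpow_right (hcent t ht) i
  have hz : ∀ t ∈ (T : Subgroup G), t ∈ zpowers x := fun t ht =>
    mem_zpowers_of_commute h T hx hx4 ht (hxc t ht).symm
  obtain ⟨j, hj⟩ := Subgroup.mem_zpowers_iff.mp (hz a a.2)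
  obtain ⟨k, hk⟩ := Subgroup.mem_zpowers_iff.mp (hz b b.2)
  apply Subtype.ext
  rw [Subgroup.coe_mul, Subgroup.coe_mul, ← hj, ← hk]
  exact ((Commute.refl x).zpow_zpow j k).eq

theorem card_orderOf_fin : Nat.card {g : G // orderOf g = 3} = 56 ∧
    Nat.card {g : G // orderOf g = 7} = 48 ∧ Nat.card {g : G // orderOf g = 2} = 21 ∧
    Nat.card {g : G // orderOf g = 4} = 42 ∧
    (∀ s : G, orderOf s = 2 → ∃ T : Sylow 2 G, s ∈ (T : Subgroup G) ∧
      ∀ t ∈ (T : Subgroup G), t * s = s * t) ∧
    (∀ (T : Sylow 2 G) (x y : G), x ∈ (T : Subgroup G) → y ∈ (T : Subgroup G) →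
      orderOf x = 4 → orderOf y = 4 → y = x ∨ y = x⁻¹) := by
  classical
  have := Fintype.ofFinite G
  have h3 : Nat.card {g : G // orderOf g = 3} = 56 := by
    rw [card_orderOf_eq_prime (card_three h), card_sylow_three h]
  have h7 : Nat.card {g : G // orderOf g = 7} = 48 := by
    rw [card_orderOf_eq_prime (card_seven h), card_sylow_seven h]
  have hno8 : ∀ g : G, orderOf g ≠ 8 := by
    intro g hg
    obtain ⟨T, hT⟩ := (IsPGroup.of_card (p := 2) (n := 3) (by rw [Nat.card_zpowers, hg]; norm_num :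
      Nat.card ↥(zpowers g) = 2 ^ 3)).exists_le_sylow
    have he := eq_sylow_of_card_eight h T hT (by rw [Nat.card_zpowers, hg]; norm_num)
    refine not_comm_two h T ?_
    rw [← he]
    infer_instance
  have hsum : Nat.card {g : G // orderOf g = 2} + Nat.card {g : G // orderOf g = 4} = 63 := by
    have hall : ∀ g : G, orderOf g = 1 ∨ orderOf g = 2 ∨ orderOf g = 3 ∨ orderOf g = 4 ∨ orderOf g = 7 := by
      intro g
      rcases orderOf_cases h g with h' | h' | h'
      · omega
      · omega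
      · have := Nat.le_of_dvd (by norm_num) h'
        have := hno8 g
        have := orderOf_pos g
        interval_cases orderOf g <;> omega
    have h1 : Nat.card {g : G // orderOf g = 1} = 1 := by
      simp [orderOf_eq_one_iff]
    simp only [Nat.card_eq_fintype_card, Fintype.card_subtype] at h1 h3 h7 ⊢
    have hc := Finset.card_eq_sum_card_fiberwise (f := fun g : G => orderOf g) (s := Finset.univ)
      (t := ({1, 2, 3, 4, 7} : Finset ℕ)) (fun g _ => by have := hall g; rcases hall g with h | h | h | h | h <;> simp [h])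
    simp only [Finset.sum_insert, Finset.mem_insert, Finset.mem_singleton, Nat.reduceEqDiff, or_self,
      not_false_eq_true, Finset.sum_singleton] at hc
    rw [Finset.card_univ, ← Nat.card_eq_fintype_card, h, h1, h3, h7] at hc
    omega
  choose z hzT hzne hz2 hzc using exists_central h
  choose x hxT hx4 using exists_orderOf_four h
  have hsq : ∀ (T : Sylow 2 G) (y : G), y ∈ (T : Subgroup G) → orderOf y = 4 → y * y = z T :=
    fun T y hy hy4 => sq_eq_central h T hy hy4 (hzT T) (hzne T) (hzc T)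
  have hzinj : ∀ S T : Sylow 2 G, z S = z T → S = T := fun S T he => Sylow.ext (by
    rw [← centralizer_central h S (hzT S) (hzne S) (hzc S),
      ← centralizer_central h T (hzT T) (hzne T) (hzc T), he])
  let f : Sylow 2 G → {g : G // orderOf g = 2} := fun T => ⟨z T, hz2 T⟩
  have hfinj : Function.Injective f := fun S T he => hzinj S T (congrArg Subtype.val he)
  let k : Sylow 2 G × Bool → {g : G // orderOf g = 4} := fun q =>
    if q.2 then ⟨x q.1, hx4 q.1⟩ else ⟨(x q.1)⁻¹, by rw [orderOf_inv]; exact hx4 q.1⟩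
  have hkmem : ∀ q, ((k q : {g : G // orderOf g = 4}) : G) ∈ (q.1 : Subgroup G) := by
    rintro ⟨T, _ | _⟩
    · exact inv_mem (hxT T)
    · exact hxT T
  have hkinj : Function.Injective k := by
    rintro ⟨S, s⟩ ⟨T, t⟩ he
    have hST : S = T := by
      refine hzinj S T ?_
      rw [← hsq S _ (hkmem ⟨S, s⟩) (k ⟨S, s⟩).2, ← hsq T _ (hkmem ⟨T, t⟩) (k ⟨T, t⟩).2, he]
    subst hST
    have hxx : x S ≠ (x S)⁻¹ := by
      intro h1
      have h2 : orderOf (x S) ∣ 2 := orderOf_dvd_iff_pow_eq_one.mpr (by rw [pow_two]; exact eq_inv_iff_mul_eq_one.mp h1)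
      rw [hx4 S] at h2
      norm_num at h2
    rcases s with _ | _ <;> rcases t with _ | _ <;> simp [k, Subtype.ext_iff] at he ⊢
    · exact hxx he.symm
    · exact hxx he
  have hf := Nat.card_le_card_of_injective f hfinj
  have hk := Nat.card_le_card_of_injective k hkinj
  have hk' : Nat.card (Sylow 2 G × Bool) = 42 := by
    rw [Nat.card_prod, card_sylow_two h, Nat.card_eq_fintype_card, Fintype.card_bool]
  rw [card_sylow_two h] at hf
  rw [hk'] at hk
  have hc2 : Nat.card {g : G // orderOf g = 2} = 21 := by omega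
  have hc4 : Nat.card {g : G // orderOf g = 4} = 42 := by omega
  have hfb : Function.Bijective f :=
    (Nat.bijective_iff_injective_and_card _).mpr ⟨hfinj, (card_sylow_two h).trans hc2.symm⟩
  have hkb : Function.Bijective k :=
    (Nat.bijective_iff_injective_and_card _).mpr ⟨hkinj, hk'.trans hc4.symm⟩
  refine ⟨h3, h7, hc2, hc4, fun s hs => ?_, fun T a b ha hb ha4 hb4 => ?_⟩
  · obtain ⟨T, hT⟩ := hfb.2 ⟨s, hs⟩
    obtain rfl : z T = s := congrArg Subtype.val hT
    exact ⟨T, hzT T, hzc T⟩
  · have key : ∀ w : G, w ∈ (T : Subgroup G) → orderOf w = 4 → w = x T ∨ w = (x T)⁻¹ := by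
      intro w hw hw4
      obtain ⟨⟨S, s⟩, hS⟩ := hkb.2 ⟨w, hw4⟩
      have hval : ((k ⟨S, s⟩ : {g : G // orderOf g = 4}) : G) = w := congrArg Subtype.val hS
      have hST : S = T := by
        refine hzinj S T ?_
        rw [← hsq T w hw hw4, ← hsq S _ (hkmem ⟨S, s⟩) (k ⟨S, s⟩).2, hval]
      subst hST
      rcases s with _ | _
      · exact .inr hval.symm
      · exact .inl hval.symm
    rcases key a ha ha4 with rfl | rfl <;> rcases key b hb hb4 with rfl | rfl <;> simp

theorem exists_sylow_of_involution {s : G} (hs : orderOf s = 2) : ∃ T : Sylow 2 G,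
    s ∈ (T : Subgroup G) ∧ ∀ t ∈ (T : Subgroup G), t * s = s * t :=
  (card_orderOf_fin h).2.2.2.2.1 s hs

theorem eq_or_eq_inv (T : Sylow 2 G) {x y : G} (hx : x ∈ (T : Subgroup G)) (hy : y ∈ (T : Subgroup G))
    (hx4 : orderOf x = 4) (hy4 : orderOf y = 4) : y = x ∨ y = x⁻¹ :=
  (card_orderOf_fin h).2.2.2.2.2 T x y hx hy hx4 hy4

/-- Generators of a Sylow `2`-subgroup as a dihedral group of order eight. -/
theorem exists_dihedral_generators (T : Sylow 2 G) : ∃ x y : G, x ∈ (T : Subgroup G) ∧
    y ∈ (T : Subgroup G) ∧ orderOf x = 4 ∧ y * y = 1 ∧ y ∉ zpowers x ∧ y * x * y⁻¹ = x⁻¹ ∧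
    ∀ a ∈ (T : Subgroup G), a ∈ zpowers x ∨ y⁻¹ * a ∈ zpowers x := by
  obtain ⟨x, hx, hx4⟩ := exists_orderOf_four h T
  have hnle : ¬ (T : Subgroup G) ≤ zpowers x := fun hle => by
    have := Subgroup.card_le_of_le hle
    rw [card_two h T, Nat.card_zpowers, hx4] at this
    omega
  obtain ⟨y, hy, hyx⟩ := SetLike.not_le_iff_exists.mp hnle
  have hyy : y * y = 1 := by
    have hd : orderOf y ∣ 2 ^ 3 := by
      have := Subgroup.orderOf_dvd_natCard _ hy; rwa [card_two h T] at this
    obtain ⟨i, hi, hyi⟩ := (Nat.dvd_prime_pow Nat.prime_two).mp hd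
    interval_cases i
    · rw [orderOf_eq_one_iff.mp hyi, one_mul]
    · rw [← pow_two]; exact orderOf_dvd_iff_pow_eq_one.mp (by rw [hyi]; norm_num)
    · exfalso
      rcases eq_or_eq_inv h T hx hy hx4 hyi with rfl | rfl
      · exact hyx (mem_zpowers _)
      · exact hyx (inv_mem (mem_zpowers _))
    · exfalso
      have := eq_sylow_of_card_eight h T (zpowers_le.mpr hy) (by rw [Nat.card_zpowers, hyi]; norm_num)
      refine not_comm_two h T ?_
      rw [← this]
      infer_instance
  refine ⟨x, y, hx, hy, hx4, hyy, hyx, ?_, ?_⟩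
  · have ho : orderOf (y * x * y⁻¹) = 4 :=
      (orderOf_injective (MulAut.conj y).toMonoidHom (MulAut.conj y).injective x).trans hx4
    refine (eq_or_eq_inv h T hx (mul_mem (mul_mem hy hx) (inv_mem hy)) hx4 ho).resolve_left fun h1 => ?_
    exact hyx (mem_zpowers_of_commute h T hx hx4 hy (mul_inv_eq_iff_eq_mul.mp h1).symm)
  · intro a ha
    by_contra hcon
    rw [not_or] at hcon
    have hidx : ((zpowers x).subgroupOf (T : Subgroup G)).index = 2 := by
      have := Subgroup.card_mul_index ((zpowers x).subgroupOf (T : Subgroup G))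
      rw [Nat.card_congr (Subgroup.subgroupOfEquivOfLe (zpowers_le.mpr hx)).toEquiv, Nat.card_zpowers,
        hx4, card_two h T] at this
      omega
    have h1 := (Subgroup.mul_mem_iff_of_index_two hidx (a := (⟨y, hy⟩ : ↥(T : Subgroup G))⁻¹)
      (b := ⟨a, ha⟩)).mpr ?_
    · exact hcon.2 h1
    · simp only [Subgroup.inv_mem_iff, Subgroup.mem_subgroupOf]
      exact iff_of_false hyx hcon.1

/-- The centralizer in `T` of an involution other than the central one is a Klein four-group. -/
theorem isKleinFour_inf_centralizer (T : Sylow 2 G) {x z a : G} (hx : x ∈ (T : Subgroup G))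
    (hx4 : orderOf x = 4) (hz : z ∈ (T : Subgroup G)) (hne : z ≠ 1)
    (hzc : ∀ t ∈ (T : Subgroup G), t * z = z * t) (ha : a ∈ (T : Subgroup G)) (ha2 : orderOf a = 2)
    (haz : a ≠ z) : IsKleinFour ↥((T : Subgroup G) ⊓ centralizer ({a} : Set G) : Subgroup G) ∧
      z ∈ (T : Subgroup G) ⊓ centralizer ({a} : Set G) := by
  set U : Subgroup G := (T : Subgroup G) ⊓ centralizer ({a} : Set G) with hU
  have hzU : z ∈ U := ⟨hz, mem_centralizer_singleton_iff.mpr (hzc a ha).symm⟩
  have haU : a ∈ U := ⟨ha, mem_centralizer_singleton_iff.mpr rfl⟩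
  have hax : a ∉ zpowers x := by
    intro hm
    obtain ⟨i, rfl⟩ := Subgroup.mem_zpowers_iff.mp hm
    rcases (by omega : i % 4 = 0 ∨ i % 4 = 1 ∨ i % 4 = 2 ∨ i % 4 = 3) with hi | hi | hi | hi <;>
      rw [← zpow_mod_orderOf, hx4, Nat.cast_ofNat, hi] at ha2 haz
    · rw [zpow_zero, orderOf_one] at ha2; omega
    · rw [zpow_one, hx4] at ha2; omega
    · exact haz (by rw [zpow_two]; exact sq_eq_central h T hx hx4 hz hne hzc)
    · rw [show x ^ (3 : ℤ) = x⁻¹ by
        rw [eq_inv_iff_mul_eq_one, ← zpow_add_one]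
        norm_num
        rw [← hx4]
        exact_mod_cast pow_orderOf_eq_one x, orderOf_inv, hx4] at ha2
      omega
  have hxU : ∀ w ∈ U, orderOf w ≠ 4 := by
    intro w hw hw4
    have hwa : Commute w a := mem_centralizer_singleton_iff.mp hw.2
    have hm := mem_zpowers_of_commute h T hw.1 hw4 ha hwa
    rcases eq_or_eq_inv h T hx hw.1 hx4 hw4 with rfl | rfl
    · exact hax hm
    · exact hax (by rwa [Subgroup.zpowers_inv] at hm)
  have hexp : ∀ w : ↥U, w ^ 2 = 1 := by
    intro w
    have hd : orderOf (w : G) ∣ 2 ^ 3 := by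
      have := Subgroup.orderOf_dvd_natCard _ w.2.1; rwa [card_two h T] at this
    obtain ⟨i, hi, hwi⟩ := (Nat.dvd_prime_pow Nat.prime_two).mp hd
    rw [Subgroup.orderOf_coe] at hwi
    interval_cases i
    · rw [orderOf_eq_one_iff.mp hwi, one_pow]
    · exact orderOf_dvd_iff_pow_eq_one.mp (by rw [hwi]; norm_num)
    · exact absurd (by rw [Subgroup.orderOf_coe, hwi]; norm_num) (hxU w w.2)
    · exfalso
      rw [← Subgroup.orderOf_coe] at hwi
      have := eq_sylow_of_card_eight h T (zpowers_le.mpr w.2.1) (by rw [Nat.card_zpowers, hwi]; norm_num)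
      refine not_comm_two h T ?_
      rw [← this]
      infer_instance
  have hcard : Nat.card ↥U = 4 := by
    have hd := card_two h T ▸ Subgroup.card_dvd_of_le (inf_le_left : U ≤ (T : Subgroup G))
    have hle := Nat.le_of_dvd (by norm_num) hd
    have hne8 : Nat.card ↥U ≠ 8 := by
      intro h8
      have he : U = (T : Subgroup G) := eq_sylow_of_card_eight h T inf_le_left (by omega)
      exact hxU x (he ▸ hx) hx4
    have h3 : 3 ≤ Nat.card ↥U := by
      classical
      have := Fintype.ofFinite ↥U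
      have hne' : (⟨a, haU⟩ : ↥U) ≠ ⟨z, hzU⟩ := fun he => haz (congrArg Subtype.val he)
      have ha1 : (⟨a, haU⟩ : ↥U) ≠ 1 := fun he => by
        have : a = 1 := congrArg Subtype.val he
        rw [this, orderOf_one] at ha2
        omega
      have hz1 : (⟨z, hzU⟩ : ↥U) ≠ 1 := fun he => hne (congrArg Subtype.val he)
      rw [Nat.card_eq_fintype_card]
      refine le_of_eq_of_le ?_ (Finset.card_le_univ ({1, ⟨z, hzU⟩, ⟨a, haU⟩} : Finset ↥U))
      rw [Finset.card_insert_of_notMem (by simp [hz1.symm, ha1.symm]), Finset.card_pair hne'.symm]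
    interval_cases Nat.card ↥U <;> omega
  have : Nontrivial ↥U := Finite.one_lt_card_iff_nontrivial.mp (by omega)
  exact ⟨⟨hcard, (Monoid.exponent_eq_prime_iff Nat.prime_two).mpr fun w hw =>
    orderOf_eq_prime (hexp w) hw⟩, hzU⟩

theorem kleinFour_eq (T : Sylow 2 G) {U : Subgroup G} (hU : U ≤ (T : Subgroup G))
    (hK : IsKleinFour ↥U) {x z : G} (hx : x ∈ (T : Subgroup G))
    (hx4 : orderOf x = 4) (hz : z ∈ (T : Subgroup G)) (hne : z ≠ 1)
    (hzc : ∀ t ∈ (T : Subgroup G), t * z = z * t) :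
    z ∈ U ∧ ∀ a ∈ U, a ≠ 1 → a ≠ z → U = (T : Subgroup G) ⊓ centralizer ({a} : Set G) := by
  have : IsMulCommutative ↥U := IsKleinFour.isMulCommutative
  have hord : ∀ a ∈ U, a ≠ 1 → orderOf a = 2 := by
    intro a ha ha1
    refine orderOf_eq_prime ?_ ha1
    have := congrArg Subtype.val (IsKleinFour.mul_self (⟨a, ha⟩ : ↥U))
    rw [pow_two]; simpa using this
  have key : ∀ a ∈ U, a ≠ 1 → a ≠ z → U = (T : Subgroup G) ⊓ centralizer ({a} : Set G) := by
    intro a ha ha1 haz
    obtain ⟨hK', -⟩ := isKleinFour_inf_centralizer h T hx hx4 hz hne hzc (hU ha) (hord a ha ha1) haz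
    refine Subgroup.eq_of_le_of_card_ge (le_inf hU fun w hw => mem_centralizer_singleton_iff.mpr ?_) ?_
    · exact congrArg Subtype.val (mul_comm' (⟨w, hw⟩ : ↥U) ⟨a, ha⟩)
    · rw [hK'.card_four, hK.card_four]
  refine ⟨?_, key⟩
  obtain ⟨a, ha⟩ := exists_prime_orderOf_dvd_card' (G := ↥U) 2 (by rw [hK.card_four]; norm_num)
  have ha1 : (a : G) ≠ 1 := fun he => by
    rw [← Subgroup.orderOf_coe, he, orderOf_one] at ha; omega
  by_cases haz : (a : G) = z
  · exact haz ▸ a.2
  · rw [key a a.2 ha1 haz]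
    exact ⟨hz, mem_centralizer_singleton_iff.mpr (hzc a (hU a.2)).symm⟩

end Cfsg.Agent.SmallGroups.Order168
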