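import Cfsg.Agent.SmallGroups.Order168Klein
import Cfsg.Agent.S1012
import Cfsg.Agent.S0992

/-!
# Klein normalizers and subgroups of a simple group of order 168
-/

set_option autoImplicit false
set_option linter.unusedSectionVars false

namespace Cfsg.Agent.SmallGroups.Order168

open Subgroup SmallGroups

variable {G : Type*} [Group G] [Finite G] [IsSimpleGroup G]

theorem isPGroup_of_isKleinFour {U : Subgroup G} (hK : IsKleinFour ↥U) : IsPGroup 2 ↥U :=
  IsPGroup.of_card (n := 2) (by rw [hK.card_four]; norm_num)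

theorem orderOf_of_mem_kleinFour {U : Subgroup G} (hK : IsKleinFour ↥U) {a : G} (ha : a ∈ U)
    (ha1 : a ≠ 1) : orderOf a = 2 := by
  refine orderOf_eq_prime ?_ ha1
  have := congrArg Subtype.val (IsKleinFour.mul_self (⟨a, ha⟩ : ↥U))
  rw [pow_two]; simpa using this

variable (h : Nat.card G = 168)
include h

theorem le_normalizer_kleinFour (T : Sylow 2 G) {U : Subgroup G} (hU : U ≤ (T : Subgroup G))
    (hK : IsKleinFour ↥U) : (T : Subgroup G) ≤ normalizer (U : Set G) := by
  have hidx : (U.subgroupOf (T : Subgroup G)).index = 2 := by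
    have := Subgroup.card_mul_index (U.subgroupOf (T : Subgroup G))
    rw [Nat.card_congr (Subgroup.subgroupOfEquivOfLe hU).toEquiv, hK.card_four, card_two h T] at this
    omega
  exact (Subgroup.normal_subgroupOf_iff_le_normalizer hU).mp (Subgroup.normal_of_index_eq_two hidx)

theorem card_normalizer_kleinFour {U : Subgroup G} (hK : IsKleinFour ↥U) :
    Nat.card ↥(normalizer (U : Set G)) = 24 := by
  have : IsMulCommutative ↥U := IsKleinFour.isMulCommutative
  obtain ⟨T, hT⟩ := (isPGroup_of_isKleinFour hK).exists_le_sylow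
  obtain ⟨z, hzT, hz1, hz2, hzc⟩ := exists_central h T
  obtain ⟨x, hx, hx4⟩ := exists_orderOf_four h T
  obtain ⟨hzU, -⟩ := kleinFour_eq h T hT hK hx hx4 hzT hz1 hzc
  have hnle : ¬ U ≤ zpowers z := fun hle => by
    have := Subgroup.card_le_of_le hle
    rw [hK.card_four, Nat.card_zpowers, hz2] at this
    omega
  obtain ⟨a, haU, haz⟩ := SetLike.not_le_iff_exists.mp hnle
  have ha1 : a ≠ 1 := fun he => haz (he ▸ one_mem _)
  have ha2 := orderOf_of_mem_kleinFour hK haU ha1
  obtain ⟨S, haS, haSc⟩ := exists_sylow_of_involution h ha2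
  have hCa : centralizer ({a} : Set G) = (S : Subgroup G) := centralizer_central h S haS ha1 haSc
  have hCz : centralizer ({z} : Set G) = (T : Subgroup G) := centralizer_central h T hzT hz1 hzc
  have hUC : ∀ w ∈ U, centralizer (U : Set G) ≤ centralizer ({w} : Set G) := fun w hw =>
    Subgroup.centralizer_le (by simpa using hw)
  have hUS : U ≤ (S : Subgroup G) := hCa ▸ (U.le_centralizer.trans (hUC a haU))
  have hST : (S : Subgroup G) ≠ (T : Subgroup G) := fun he => by
    refine haz ?_
    obtain ⟨y, hy, hy4⟩ := exists_orderOf_four h T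
    have h1 := sq_eq_central h S (he ▸ hy) hy4 haS ha1 haSc
    rw [sq_eq_central h T hy hy4 hzT hz1 hzc] at h1
    exact h1 ▸ mem_zpowers _
  have hC : Nat.card ↥(centralizer (U : Set G)) = 4 := by
    have hle : centralizer (U : Set G) ≤ (S : Subgroup G) ⊓ (T : Subgroup G) :=
      le_inf (hCa ▸ hUC a haU) (hCz ▸ hUC z hzU)
    have h1 : Nat.card ↥((S : Subgroup G) ⊓ (T : Subgroup G) : Subgroup G) ≤ 4 := by
      by_contra hgt
      exact hST ((eq_sylow_of_card_eight h S inf_le_left (by omega)).symm.trans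
        (eq_sylow_of_card_eight h T inf_le_right (by omega)))
    have h2 := hK.card_four ▸ Subgroup.card_le_of_le U.le_centralizer
    have h3 := Subgroup.card_le_of_le hle
    omega
  have hd : Nat.card ↥(normalizer (U : Set G)) ∣ 24 := by
    have hmul := Subgroup.relIndex_mul_relIndex (⊥ : Subgroup G) _ _ bot_le
      (Subgroup.centralizer_le_normalizer (U : Set G))
    rw [relIndex_bot_left, relIndex_bot_left, hC] at hmul
    rw [← hmul]
    exact Nat.mul_dvd_mul_left 4
      ((relIndex_centralizer_dvd U).trans (Cfsg.Agent.S0992.card_mulAut_dvd_six _ hK.card_four))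
  have h8 : 8 ∣ Nat.card ↥(normalizer (U : Set G)) :=
    card_two h T ▸ Subgroup.card_dvd_of_le (le_normalizer_kleinFour h T hT hK)
  obtain ⟨c, hc⟩ := h8
  have hle := Nat.le_of_dvd (by norm_num) hd
  rw [hc] at hd hle ⊢
  have hne : c ≠ 1 := by
    rintro rfl
    refine hST ?_
    have e : ∀ R : Sylow 2 G, (R : Subgroup G) ≤ normalizer (U : Set G) →
        (R : Subgroup G) = normalizer (U : Set G) := fun R hR =>
      Subgroup.eq_of_le_of_card_ge hR (by rw [hc, card_two h R])
    exact (e S (le_normalizer_kleinFour h S hUS hK)).trans (e T (le_normalizer_kleinFour h T hT hK)).symm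
  have : c ≤ 3 := by omega
  interval_cases c <;> omega

theorem nonempty_normalizer_equiv_perm {U : Subgroup G} (hK : IsKleinFour ↥U) :
    Nonempty (↥(normalizer (U : Set G)) ≃* Equiv.Perm (Fin 4)) := by
  refine Cfsg.Agent.S1012.result (card_normalizer_kleinFour h hK) fun g hg => ?_
  rw [← Subgroup.orderOf_coe] at hg
  rcases orderOf_cases h (g : G) with h' | h' | h'
  · omega
  · omega
  · rw [hg] at h'; norm_num at h'

theorem normalizer_kleinFour_inj {U W : Subgroup G} (hU : IsKleinFour ↥U) (hW : IsKleinFour ↥W)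
    (he : normalizer (U : Set G) = normalizer (W : Set G)) : U = W := by
  have hUn : U ≤ normalizer (U : Set G) := Subgroup.le_normalizer
  have hWn : W ≤ normalizer (U : Set G) := he ▸ Subgroup.le_normalizer
  set M := normalizer (U : Set G)
  have h1 : (U.subgroupOf M).Normal := (Subgroup.normal_subgroupOf_iff_le_normalizer hUn).mpr le_rfl
  have h2 : (W.subgroupOf M).Normal := (Subgroup.normal_subgroupOf_iff_le_normalizer hWn).mpr he.le
  have hp : IsPGroup 2 ↥(U.subgroupOf M ⊔ W.subgroupOf M) :=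
    IsPGroup.to_sup_of_normal_right (isPGroup_of_isKleinFour hU).comap_subtype
      (isPGroup_of_isKleinFour hW).comap_subtype
  have hmap : (U.subgroupOf M ⊔ W.subgroupOf M).map M.subtype = U ⊔ W := by
    rw [Subgroup.map_sup, Subgroup.subgroupOf_map_subtype, Subgroup.subgroupOf_map_subtype,
      inf_eq_left.mpr hUn, inf_eq_left.mpr hWn]
  have hp' : IsPGroup 2 ↥(U ⊔ W) := hmap ▸ hp.map M.subtype
  obtain ⟨T, hT⟩ := hp'.exists_le_sylow
  by_contra hne
  have hlt : 4 < Nat.card ↥(U ⊔ W : Subgroup G) := by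
    by_contra hle
    have e1 : U = U ⊔ W := Subgroup.eq_of_le_of_card_ge le_sup_left (by rw [hU.card_four]; omega)
    have e2 : W = U ⊔ W := Subgroup.eq_of_le_of_card_ge le_sup_right (by rw [hW.card_four]; omega)
    exact hne (e1.trans e2.symm)
  have hUW : U ⊔ W = (T : Subgroup G) := eq_sylow_of_card_eight h T hT hlt
  have hMN : M ≤ normalizer ((T : Subgroup G) : Set G) := by
    rw [← hUW]
    refine (Subgroup.normal_subgroupOf_iff_le_normalizer (sup_le hUn hWn)).mp ?_
    rw [← hmap]
    have : (((U.subgroupOf M ⊔ W.subgroupOf M).map M.subtype).subgroupOf M) =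
        U.subgroupOf M ⊔ W.subgroupOf M :=
      Subgroup.comap_map_eq_self_of_injective M.subtype_injective _
    rw [this]
    infer_instance
  have h3 := Subgroup.card_le_of_le hMN
  rw [card_normalizer_kleinFour h hU, normalizer_two h T, card_two h T] at h3
  omega

/-- There are exactly two Klein four-subgroups in a Sylow `2`-subgroup. -/
theorem exists_two_kleinFour (T : Sylow 2 G) : ∃ U W : Subgroup G, U ≤ (T : Subgroup G) ∧
    W ≤ (T : Subgroup G) ∧ IsKleinFour ↥U ∧ IsKleinFour ↥W ∧ U ≠ W ∧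
    ∀ V : Subgroup G, V ≤ (T : Subgroup G) → IsKleinFour ↥V → V = U ∨ V = W := by
  obtain ⟨z, hzT, hz1, hz2, hzc⟩ := exists_central h T
  obtain ⟨x, y, hx, hy, hx4, hyy, hyx, hconj, hcov⟩ := exists_dihedral_generators h T
  have hxx : x * x = z := sq_eq_central h T hx hx4 hzT hz1 hzc
  have hzx : z ∈ zpowers x := hxx ▸ mul_mem (mem_zpowers x) (mem_zpowers x)
  have hy2 : orderOf y = 2 := orderOf_eq_prime (by rw [pow_two, hyy]) (fun he => hyx (he ▸ one_mem _))
  have hyxx : (y * x) * (y * x) = 1 := by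
    have hyinv : y⁻¹ = y := inv_eq_of_mul_eq_one_left hyy
    calc (y * x) * (y * x) = (y * x * y⁻¹) * x := by rw [hyinv]; group
      _ = 1 := by rw [hconj]; group
  have hyxn : y * x ∉ zpowers x := fun hm => hyx (by
    have := mul_mem hm (inv_mem (mem_zpowers x))
    rwa [mul_inv_cancel_right] at this)
  have hyx2 : orderOf (y * x) = 2 := orderOf_eq_prime (by rw [pow_two, hyxx]) (fun he => hyxn (he ▸ one_mem _))
  have hyz : y ≠ z := fun he => hyx (he ▸ hzx)
  have hyxz : y * x ≠ z := fun he => hyxn (he ▸ hzx)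
  obtain ⟨hU, hzU⟩ := isKleinFour_inf_centralizer h T hx hx4 hzT hz1 hzc hy hy2 hyz
  obtain ⟨hW, hzW⟩ := isKleinFour_inf_centralizer h T hx hx4 hzT hz1 hzc (mul_mem hy hx) hyx2 hyxz
  refine ⟨_, _, inf_le_left, inf_le_left, hU, hW, fun he => ?_, fun V hV hVK => ?_⟩
  · have hm : y * x ∈ (T : Subgroup G) ⊓ centralizer ({y} : Set G) :=
      he ▸ ⟨mul_mem hy hx, mem_centralizer_singleton_iff.mpr rfl⟩
    have hc : y * x * y = y * (y * x) := mem_centralizer_singleton_iff.mp hm.2
    rw [mul_assoc] at hc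
    exact hyx (mem_zpowers_of_commute h T hx hx4 hy (mul_left_cancel hc))
  · obtain ⟨hzV, hkey⟩ := kleinFour_eq h T hV hVK hx hx4 hzT hz1 hzc
    have hnle : ¬ V ≤ zpowers z := fun hle => by
      have := Subgroup.card_le_of_le hle
      rw [hVK.card_four, Nat.card_zpowers, hz2] at this
      omega
    obtain ⟨a, haV, haz⟩ := SetLike.not_le_iff_exists.mp hnle
    have ha1 : a ≠ 1 := fun he => haz (he ▸ one_mem _)
    have haz' : a ≠ z := fun he => haz (he ▸ mem_zpowers z)
    have hVa := hkey a haV ha1 haz'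
    have haxn : a ∉ zpowers x := by
      intro hm
      obtain ⟨hK', -⟩ := isKleinFour_inf_centralizer h T hx hx4 hzT hz1 hzc (hV haV)
        (orderOf_of_mem_kleinFour hVK haV ha1) haz'
      have hxV : x ∈ (T : Subgroup G) ⊓ centralizer ({a} : Set G) := by
        refine ⟨hx, mem_centralizer_singleton_iff.mpr ?_⟩
        obtain ⟨i, rfl⟩ := Subgroup.mem_zpowers_iff.mp hm
        exact ((Commute.refl x).zpow_right i).eq
      have := orderOf_of_mem_kleinFour hK' hxV (fun he => by rw [he, orderOf_one] at hx4; omega)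
      omega
    obtain ⟨i, hi⟩ := Subgroup.mem_zpowers_iff.mp ((hcov a (hV haV)).resolve_left haxn)
    have ha : a = y * x ^ i := by rw [hi, mul_inv_cancel_left]
    have hx4' : x ^ i = x ^ (i % 4) := by rw [← zpow_mod_orderOf x i, hx4]; norm_num
    have hzy : Commute y z := hzc y hy
    have hzyx : Commute (y * x) z := hzc _ (mul_mem hy hx)
    have hx3 : x ^ (3 : ℤ) = x * z := by
      rw [← hxx, ← mul_assoc, show (3 : ℤ) = 1 + 1 + 1 from rfl, zpow_add, zpow_add, zpow_one]
    rcases (by omega : i % 4 = 0 ∨ i % 4 = 1 ∨ i % 4 = 2 ∨ i % 4 = 3) with h4 | h4 | h4 | h4 <;>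
      rw [h4] at hx4'
    · rw [hx4', zpow_zero, mul_one] at ha
      exact .inl (hVa.trans (by rw [ha]))
    · rw [hx4', zpow_one] at ha
      exact .inr (hVa.trans (by rw [ha]))
    · rw [hx4', zpow_two, hxx] at ha
      refine .inl ?_
      refine Subgroup.eq_of_le_of_card_ge (fun w hw => ⟨hV hw, ?_⟩) (by rw [hU.card_four, hVK.card_four])
      have hwa : Commute w a := mem_centralizer_singleton_iff.mp (hVa ▸ hw).2
      have hwz : Commute w z := hzc w (hV hw)
      refine mem_centralizer_singleton_iff.mpr ?_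
      have hy' : y = a * z := by rw [ha, mul_assoc, ← hxx, show x * x * (x * x) = x ^ (4 : ℕ) by
        simp [pow_succ, mul_assoc], ← hx4, pow_orderOf_eq_one, mul_one]
      rw [hy']
      exact hwa.mul_right hwz
    · rw [hx4', hx3, ← mul_assoc] at ha
      refine .inr ?_
      refine Subgroup.eq_of_le_of_card_ge (fun w hw => ⟨hV hw, ?_⟩) (by rw [hW.card_four, hVK.card_four])
      have hwa : Commute w a := mem_centralizer_singleton_iff.mp (hVa ▸ hw).2
      have hwz : Commute w z := hzc w (hV hw)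
      refine mem_centralizer_singleton_iff.mpr ?_
      have hy' : y * x = a * z := by rw [ha, mul_assoc, ← hxx, show x * x * (x * x) = x ^ (4 : ℕ) by
        simp [pow_succ, mul_assoc], ← hx4, pow_orderOf_eq_one, mul_one]
      rw [hy']
      exact hwa.mul_right hwz

/-- Klein four-subgroups of a single Sylow subgroup are not conjugate. -/
theorem kleinFour_not_conj (T : Sylow 2 G) {U W : Subgroup G} (hU : U ≤ (T : Subgroup G))
    (hW : W ≤ (T : Subgroup G)) (hUK : IsKleinFour ↥U) (hWK : IsKleinFour ↥W) (hne : U ≠ W) (g : G) :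
    U.map (MulAut.conj g).toMonoidHom ≠ W := by
  intro he
  set N := normalizer (W : Set G)
  have hTN : (T : Subgroup G) ≤ N := le_normalizer_kleinFour h T hW hWK
  have hgT : ((g • T : Sylow 2 G) : Subgroup G) ≤ N := by
    refine le_normalizer_kleinFour h (g • T) ?_ hWK
    rw [← he]; exact Subgroup.map_mono hU
  obtain ⟨n, hn⟩ := MulAction.exists_smul_eq ↥N ((g • T).subtype hgT) (T.subtype hTN)
  rw [Sylow.smul_subtype hgT] at hn
  have hTT : (n : G) • (g • T) = T := Sylow.subtype_injective hn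
  rw [← mul_smul] at hTT
  have hmem : (n : G) * g ∈ (T : Subgroup G) := by
    rw [← normalizer_two h T]; exact Sylow.smul_eq_iff_mem_normalizer.mp hTT
  have hnU : (n : G) * g ∈ normalizer (U : Set G) := le_normalizer_kleinFour h T hU hUK hmem
  refine hne (SetLike.ext fun u => ?_)
  have hW' : ∀ w, w ∈ W ↔ g⁻¹ * w * g ∈ U := by
    intro w
    rw [← he]
    constructor
    · rintro ⟨v, hv, rfl⟩
      show g⁻¹ * (g * v * g⁻¹) * g ∈ U
      rwa [show g⁻¹ * (g * v * g⁻¹) * g = v by group]
    · intro hw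
      exact ⟨g⁻¹ * w * g, hw, show g * (g⁻¹ * w * g) * g⁻¹ = w by group⟩
  have h1 := mem_normalizer_iff.mp n.2 ((n : G)⁻¹ * u * (n : G))
  rw [show (n : G) * ((n : G)⁻¹ * u * (n : G)) * (n : G)⁻¹ = u by group] at h1
  have h2 := mem_normalizer_iff.mp hnU (((n : G) * g)⁻¹ * u * ((n : G) * g))
  rw [show (n : G) * g * (((n : G) * g)⁻¹ * u * ((n : G) * g)) * ((n : G) * g)⁻¹ = u by group] at h2
  rw [← h1, hW', show g⁻¹ * ((n : G)⁻¹ * u * (n : G)) * g =
    ((n : G) * g)⁻¹ * u * ((n : G) * g) by group, h2]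

end Cfsg.Agent.SmallGroups.Order168
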