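import Cfsg.Agent.SmallGroups.Counting
import Cfsg.Agent.PermP.PrimeCycle
import Cfsg.Agent.TwoFusion.ZStarHolds

/-!
# A simple group does not have twenty-one Sylow 5-subgroups

`G` acts on the `21` subgroups; a Sylow subgroup `P` fixes one point and has four orbits of length 5.
An involution fixing two points fixes every orbit and inverts `P`, hence it is isolated.
-/

set_option autoImplicit false
set_option linter.unusedSectionVars false

namespace Cfsg.Agent.SmallGroups.TwentyOne

open Subgroup MulAction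

variable {G : Type*} [Group G] [Finite G] [IsSimpleGroup G]

instance : Fact (Nat.Prime 5) := ⟨by norm_num⟩

local notation "Ω" => Sylow 5 G

theorem not_comm (h21 : Nat.card Ω = 21) : ¬ IsMulCommutative G := by
  intro hG
  have hsub : Subsingleton Ω := ⟨fun P Q => by
    obtain ⟨g, rfl⟩ := exists_smul_eq G P Q
    apply Sylow.ext
    ext x
    have hg : ∀ y : G, g * y * g⁻¹ = y := fun y => by rw [mul_comm' g y, mul_inv_cancel_right]
    constructor
    · exact fun hx => ⟨x, hx, hg x⟩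
    · rintro ⟨y, hy, rfl⟩
      show g * y * g⁻¹ ∈ _
      rw [hg y]
      exact hy⟩
  obtain ⟨P⟩ : Nonempty Ω := inferInstance
  rw [Nat.card_of_subsingleton P] at h21
  omega

theorem faithful (h21 : Nat.card Ω = 21) {g : G} (hg : ∀ Q : Ω, g • Q = Q) : g = 1 := by
  rcases injective_or_trivial (MulAction.toPermHom G Ω) with h | h
  · exact h (Equiv.ext fun Q => by simpa using hg Q)
  · have hfix : ∀ (x : G) (P : Ω), x • P = P := fun x P => by
      simpa using Equiv.Perm.congr_fun (h x) P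
    obtain ⟨P⟩ : Nonempty Ω := inferInstance
    have : Subsingleton Ω := ⟨fun A B => by
      obtain ⟨x, rfl⟩ := exists_smul_eq G A B
      exact (hfix x A).symm⟩
    rw [Nat.card_of_subsingleton P] at h21
    omega

omit [IsSimpleGroup G] in
theorem mem_of_fixes {P Q : Ω} {u : G} (hu : u ∈ (P : Subgroup G)) (h : u • Q = Q) :
    u ∈ (Q : Subgroup G) := by
  have hp : IsPGroup 5 ↥(zpowers u) := P.2.to_le (zpowers_le.mpr hu)
  have h2 : u ∈ zpowers u ⊓ normalizer ((Q : Subgroup G) : Set G) :=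
    ⟨mem_zpowers u, Sylow.smul_eq_iff_mem_normalizer.mp h⟩
  exact ((hp.inf_normalizer_sylow Q).le h2).2

omit [IsSimpleGroup G] in
theorem smul_self {P : Ω} {u : G} (hu : u ∈ (P : Subgroup G)) : u • P = P :=
  Sylow.smul_eq_iff_mem_normalizer.mpr (Subgroup.le_normalizer hu)

omit [IsSimpleGroup G] in
theorem eq_of_fixed {P Q : Ω} (h : ∀ u ∈ (P : Subgroup G), u • Q = Q) : Q = P :=
  Sylow.ext (P.3 Q.2 fun u hu => mem_of_fixes hu (h u hu))

omit [IsSimpleGroup G] in
/-- The size of a set of points invariant under `P` and containing `P` is `1` modulo `5`. -/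
theorem ncard_modEq_one {P : Ω} {O : Set Ω} (hP : P ∈ O)
    (hinv : ∀ u ∈ (P : Subgroup G), ∀ R ∈ O, u • R ∈ O) : O.ncard % 5 = 1 := by
  let X : SubMulAction ↥(P : Subgroup G) Ω :=
    { carrier := O, smul_mem' := fun u R hR => hinv u u.2 R hR }
  have h := P.2.card_modEq_card_fixedPoints (α := ↥X)
  have : Nat.card ↥(fixedPoints ↥(P : Subgroup G) ↥X) = 1 := by
    refine Nat.card_eq_one_iff_exists.mpr
      ⟨⟨⟨P, hP⟩, fun u => Subtype.ext (smul_self u.2)⟩, fun R => ?_⟩
    exact Subtype.ext (Subtype.ext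
      (eq_of_fixed fun u hu => congrArg Subtype.val (R.2 ⟨u, hu⟩)))
  rw [this] at h
  have hc : Nat.card ↥X = O.ncard := Nat.card_coe_set_eq O
  rw [hc] at h
  exact h

/-- The orbit of a point under `P`. -/
abbrev orb (P R : Ω) : Set Ω := MulAction.orbit ↥(P : Subgroup G) R

omit [Finite G] [IsSimpleGroup G] in
theorem mem_orb {P R R' : Ω} : R' ∈ orb P R ↔ ∃ u ∈ (P : Subgroup G), u • R = R' := by
  constructor
  · rintro ⟨u, rfl⟩
    exact ⟨u, u.2, rfl⟩
  · rintro ⟨u, hu, rfl⟩
    exact ⟨⟨u, hu⟩, rfl⟩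

omit [IsSimpleGroup G] in
theorem self_notMem_orb {P R : Ω} (hR : R ≠ P) : P ∉ orb P R := fun h => hR (by
  obtain ⟨u, hu, he⟩ := mem_orb.mp h
  rw [← inv_smul_smul u R, he]
  exact smul_self (inv_mem hu))

omit [IsSimpleGroup G] in
theorem card_orb (h21 : Nat.card Ω = 21) {P R : Ω} (hR : R ≠ P) : (orb P R).ncard = 5 := by
  obtain ⟨n, hn⟩ := P.2.card_orbit R
  rw [Nat.card_coe_set_eq] at hn
  have hlt : (insert P (orb P R)).ncard ≤ 21 := h21 ▸ Set.ncard_le_card _
  rw [Set.ncard_insert_of_notMem (self_notMem_orb hR), hn] at hlt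
  rcases n with _ | _ | n
  · refine absurd (eq_of_fixed (P := P) (Q := R) fun u hu => ?_) hR
    obtain ⟨a, ha⟩ := Set.ncard_eq_one.mp (show (orb P R).ncard = 1 by simpa using hn)
    have h1 : R ∈ orb P R := mem_orbit_self R
    have h2 : u • R ∈ orb P R := mem_orb.mpr ⟨u, hu, rfl⟩
    rw [ha, Set.mem_singleton_iff] at h1 h2
    rw [h1]
    rw [h1] at h2
    exact h2
  · simpa using hn
  · have : 25 ≤ 5 ^ (n + 1 + 1) :=
      le_trans (by norm_num) (Nat.pow_le_pow_right (by norm_num) (by omega : 2 ≤ n + 1 + 1))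
    omega

omit [IsSimpleGroup G] in
theorem stabilizer_props (h21 : Nat.card Ω = 21) {P R : Ω} (hR : R ≠ P) :
    (MulAction.stabilizer ↥(P : Subgroup G) R).index = 5 ∧
      (MulAction.stabilizer ↥(P : Subgroup G) R).Normal := by
  have h5 : (MulAction.stabilizer ↥(P : Subgroup G) R).index = 5 := by
    rw [MulAction.index_stabilizer]
    exact card_orb h21 hR
  refine ⟨h5, normal_of_index_eq_minFac_card ?_⟩
  obtain ⟨n, hn⟩ := P.2.exists_card_eq
  have hd : 5 ∣ Nat.card ↥(P : Subgroup G) := h5.symm.dvd.trans (index_dvd_card _)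
  have hn0 : n ≠ 0 := by
    rintro rfl
    rw [hn] at hd
    norm_num at hd
  rw [h5, hn, Nat.pow_minFac hn0, (by norm_num : Nat.Prime 5).minFac_eq]

theorem pow_five (h21 : Nat.card Ω = 21) {P : Ω} {u : G} (hu : u ∈ (P : Subgroup G)) :
    u ^ 5 = 1 := by
  refine faithful h21 fun R => ?_
  by_cases hR : R = P
  · subst hR
    exact smul_self (pow_mem hu 5)
  · obtain ⟨h5, hn⟩ := stabilizer_props h21 hR
    have := (MulAction.stabilizer ↥(P : Subgroup G) R).pow_index_mem ⟨u, hu⟩
    rw [h5] at this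
    exact this

theorem commute_of_mem (h21 : Nat.card Ω = 21) {P : Ω} {u v : G} (hu : u ∈ (P : Subgroup G))
    (hv : v ∈ (P : Subgroup G)) : Commute u v := by
  have h1 : u * v * (v * u)⁻¹ = 1 := by
    refine faithful h21 fun R => ?_
    by_cases hR : R = P
    · subst hR
      exact smul_self (mul_mem (mul_mem hu hv) (inv_mem (mul_mem hv hu)))
    · obtain ⟨h5, hn⟩ := stabilizer_props h21 hR
      let H := MulAction.stabilizer ↥(P : Subgroup G) R
      have : H.Normal := hn
      have : Fact (Nat.Prime 5) := ⟨by norm_num⟩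
      have hc : IsCyclic (↥(P : Subgroup G) ⧸ H) :=
        isCyclic_of_prime_card (p := 5) (by rw [← Subgroup.index_eq_card]; exact h5)
      have := hc.isMulCommutative
      have he : ((⟨u, hu⟩ * ⟨v, hv⟩ * (⟨v, hv⟩ * ⟨u, hu⟩)⁻¹ : ↥(P : Subgroup G)) :
          ↥(P : Subgroup G) ⧸ H) = 1 := by
        rw [QuotientGroup.mk_mul, QuotientGroup.mk_inv, QuotientGroup.mk_mul, QuotientGroup.mk_mul,
          mul_comm' (QuotientGroup.mk (⟨u, hu⟩ : ↥(P : Subgroup G)) : _ ⧸ H), mul_inv_cancel]
      exact (QuotientGroup.eq_one_iff _).mp he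
  exact mul_inv_eq_one.mp h1

theorem fixed_smul (h21 : Nat.card Ω = 21) {P : Ω} {u v : G} (hu : u ∈ (P : Subgroup G))
    (hv : v ∈ (P : Subgroup G)) {R : Ω} (h : u • R = R) : u • v • R = v • R := by
  rw [smul_smul, (commute_of_mem h21 hu hv).eq, ← smul_smul, h]

theorem exists_pow_smul (h21 : Nat.card Ω = 21) {P R R' : Ω} (hR : R ≠ P) {u : G}
    (hu : u ∈ (P : Subgroup G)) (hmove : u • R ≠ R) (hR' : R' ∈ orb P R) :
    ∃ a : ℕ, u ^ a • R = R' := by
  let f : Fin 5 → ↥(orb P R) := fun a => ⟨u ^ (a : ℕ) • R, mem_orb.mpr ⟨_, pow_mem hu _, rfl⟩⟩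
  have hper : MulAction.period u R = 5 := by
    have hd : MulAction.period u R ∣ 5 :=
      pow_smul_eq_iff_period_dvd.mp (by rw [pow_five h21 hu, one_smul])
    refine ((Nat.dvd_prime (by norm_num)).mp hd).resolve_left fun h => hmove ?_
    have := pow_smul_eq_iff_period_dvd.mpr (show MulAction.period u R ∣ 1 from h.dvd)
    rwa [pow_one] at this
  have hf : Function.Injective f := by
    intro a b hab
    have he : u ^ (a : ℕ) • R = u ^ (b : ℕ) • R := congrArg Subtype.val hab
    rcases le_total (a : ℕ) b with hle | hle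
    · have h0 : u ^ ((b : ℕ) - a) • R = R := by
        apply smul_left_cancel (u ^ (a : ℕ))
        rw [smul_smul, ← pow_add, Nat.add_sub_cancel' hle, he]
      rw [pow_smul_eq_iff_period_dvd, hper] at h0
      omega
    · have h0 : u ^ ((a : ℕ) - b) • R = R := by
        apply smul_left_cancel (u ^ (b : ℕ))
        rw [smul_smul, ← pow_add, Nat.add_sub_cancel' hle, he]
      rw [pow_smul_eq_iff_period_dvd, hper] at h0
      omega
  have := Fintype.ofFinite ↥(orb P R)
  have hb : Function.Bijective f := (Fintype.bijective_iff_injective_and_card f).mpr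
    ⟨hf, by rw [Fintype.card_fin, ← Nat.card_eq_fintype_card, Nat.card_coe_set_eq, card_orb h21 hR]⟩
  obtain ⟨a, ha⟩ := hb.2 ⟨R', hR'⟩
  exact ⟨a, congrArg Subtype.val ha⟩

theorem not_eleven_dvd (h21 : Nat.card Ω = 21) : ¬ 11 ∣ Nat.card G := by
  intro hd
  have : Fact (Nat.Prime 11) := ⟨by norm_num⟩
  obtain ⟨P⟩ : Nonempty Ω := inferInstance
  have hN := card_sylow_mul_card_normalizer P
  rw [h21] at hN
  have hd' : 11 ∣ Nat.card ↥(normalizer ((P : Subgroup G) : Set G)) := by
    rw [← hN] at hd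
    exact ((Nat.Prime.dvd_mul (by norm_num)).mp hd).resolve_left (by norm_num)
  obtain ⟨⟨g, hgN⟩, hg⟩ := exists_prime_orderOf_dvd_card' 11 hd'
  rw [← Subgroup.orderOf_coe] at hg
  -- `g` centralizes `P`
  have hinj : Function.Injective (MulAction.toPermHom G Ω) := fun a b hab => by
    refine mul_inv_eq_one.mp (faithful h21 fun Q => ?_)
    rw [mul_smul]
    have := Equiv.Perm.congr_fun hab (b⁻¹ • Q)
    simpa using this
  obtain ⟨n, hn⟩ := P.2.exists_card_eq
  have hn4 : n ≤ 4 := by
    by_contra hlt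
    have h1 : 5 ^ n ∣ (21).factorial := by
      rw [← hn, ← h21, ← Nat.card_perm]
      exact (Subgroup.card_subgroup_dvd_card _).trans (Subgroup.card_dvd_of_injective _ hinj)
    have h2 := (pow_dvd_pow 5 (by omega : 5 ≤ n)).trans h1
    norm_num [Nat.factorial] at h2
  have hfp := card_modEq_fixed hg hgN
  set D := (P : Subgroup G) ⊓ centralizer {g}
  obtain ⟨i, hi, hDi⟩ := (Nat.dvd_prime_pow (by norm_num : Nat.Prime 5)).mp
    (hn ▸ Subgroup.card_dvd_of_le (inf_le_left : D ≤ (P : Subgroup G)))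
  have hin : i = n := by
    rw [hn, hDi] at hfp
    have : ∀ a ≤ 4, ∀ b ≤ a, 5 ^ a % 11 = 5 ^ b % 11 → b = a := by decide
    exact this n hn4 i hi hfp
  have hcom : ∀ u ∈ (P : Subgroup G), Commute g u := fun u hu => by
    have hDP : D = (P : Subgroup G) := eq_of_le_of_card_ge inf_le_left (by rw [hn, hDi, hin])
    exact (mem_centralizer_singleton_iff.mp ((hDP.symm ▸ hu : u ∈ D)).2).symm
  have hg1 : g = 1 := by
    refine faithful h21 fun Q => ?_
    by_cases hQ : Q = P
    · subst hQ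
      exact Sylow.smul_eq_iff_mem_normalizer.mpr hgN
    · obtain ⟨u, hu, hmove⟩ : ∃ u ∈ (P : Subgroup G), u • Q ≠ Q := by
        by_contra h
        push Not at h
        exact hQ (eq_of_fixed h)
      set d := MulAction.period (u * g) Q
      have hc : Commute u g := (hcom u hu).symm
      have hz : (u * g) ^ 55 = 1 := by
        rw [hc.mul_pow, show 55 = 5 * 11 by rfl, pow_mul, pow_five h21 hu, one_pow, one_mul,
          mul_comm, pow_mul, ← hg, pow_orderOf_eq_one, one_pow]
      have hd55 : d ∣ 55 := pow_smul_eq_iff_period_dvd.mp (by rw [hz, one_smul])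
      have := Fintype.ofFinite Ω
      have hd21 : d ≤ 21 := by
        rw [← h21, Nat.card_eq_fintype_card]
        exact Function.minimalPeriod_le_card
      have hdc : d ∣ 5 ∨ d ∣ 11 := by
        have key : ∀ e ∈ Nat.divisors 55, e ≤ 21 → e ∣ 5 ∨ e ∣ 11 := by decide
        exact key d (Nat.mem_divisors.mpr ⟨hd55, by norm_num⟩) hd21
      rcases hdc with h | h
      · have h45 : (u * g) ^ 45 • Q = Q :=
          pow_smul_eq_iff_period_dvd.mpr (h.trans (by norm_num))
        rwa [hc.mul_pow, show u ^ 45 = 1 by rw [show 45 = 5 * 9 by rfl, pow_mul, pow_five h21 hu, one_pow],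
          one_mul, show g ^ 45 = g by rw [← pow_mod_orderOf, hg, pow_one]] at h45
      · have h11 : (u * g) ^ 11 • Q = Q := pow_smul_eq_iff_period_dvd.mpr h
        rw [hc.mul_pow, show g ^ 11 = 1 by rw [← hg, pow_orderOf_eq_one], mul_one,
          show u ^ 11 = u by rw [show 11 = 5 * 2 + 1 by rfl, pow_succ, pow_mul, pow_five h21 hu, one_pow, one_mul]] at h11
        exact absurd h11 hmove
  simp [hg1] at hg
where
  card_modEq_fixed {G : Type _} [Group G] [Finite G] {r : ℕ} [hr : Fact r.Prime] {y : G}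
      (hy : orderOf y = r) {D : Subgroup G} (hN : y ∈ normalizer (D : Set G)) :
      Nat.card ↥D ≡ Nat.card ↥(D ⊓ centralizer {y} : Subgroup G) [MOD r] := by
    let u : ↥(normalizer (D : Set G)) := ⟨y, hN⟩
    let U : Subgroup ↥(normalizer (D : Set G)) := zpowers u
    have hU : IsPGroup r ↥U := IsPGroup.of_card (n := 1) (by
      rw [Nat.card_zpowers, pow_one, ← Subgroup.orderOf_coe]; exact hy)
    let : MulDistribMulAction ↥U ↥D :=
      MulDistribMulAction.compHom _ (D.normalizerMonoidHom.comp U.subtype)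
    refine (hU.card_modEq_card_fixedPoints ↥D).trans (Eq.subst (motive := fun k => _ ≡ k [MOD r]) ?_ rfl)
    refine Nat.card_congr
      { toFun := fun t => ⟨(t.1 : G), t.1.2, mem_centralizer_singleton_iff.mpr ?_⟩
        invFun := fun t => ⟨⟨t.1, t.2.1⟩, fun m => ?_⟩
        left_inv := fun t => rfl
        right_inv := fun t => rfl }
    · have h1 : y * (t.1 : G) * y⁻¹ = (t.1 : G) := congrArg Subtype.val (t.2 ⟨u, mem_zpowers u⟩)
      exact (mul_inv_eq_iff_eq_mul.mp h1).symm
    · obtain ⟨⟨v, hv⟩, hm⟩ := m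
      obtain ⟨i, hi⟩ := mem_zpowers_iff.mp hm
      apply Subtype.ext
      show v * t.1 * v⁻¹ = t.1
      have hv' : v = y ^ i := by simpa [u] using (congrArg Subtype.val hi).symm
      have hc : Commute y t.1 := (mem_centralizer_singleton_iff.mp t.2.2).symm
      rw [hv', (hc.zpow_left i).eq, mul_inv_cancel_right]

/-- No non-trivial element of `P` fixes points in two of its orbits. -/
theorem eq_one_of_fixes_two (h21 : Nat.card Ω = 21) {P Q R : Ω} (hQ : Q ≠ P) (hR : R ≠ P)
    (hQR : R ∉ orb P Q) {u : G} (hu : u ∈ (P : Subgroup G)) (huQ : u • Q = Q) (huR : u • R = R) :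
    u = 1 := by
  classical
  set F := MulAction.fixedBy Ω u with hF
  have hsubF : ∀ T : Ω, u • T = T → orb P T ⊆ F := fun T hT T' hT' => by
    obtain ⟨v, hv, rfl⟩ := mem_orb.mp hT'
    exact fixed_smul h21 hu hv hT
  have hdisj : Disjoint (orb P Q) (orb P R) := by
    exact (MulAction.orbit.eq_or_disjoint Q R).resolve_left fun e => hQR (by rw [orb, e]; exact mem_orbit_self R)
  have h11 : 11 ≤ F.ncard := by
    have hs : insert P (orb P Q ∪ orb P R) ⊆ F :=
      Set.insert_subset (smul_self hu) (Set.union_subset (hsubF Q huQ) (hsubF R huR))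
    have := Set.ncard_le_ncard hs
    rw [Set.ncard_insert_of_notMem (by simp [self_notMem_orb hQ, self_notMem_orb hR]),
      Set.ncard_union_eq hdisj, card_orb h21 hQ, card_orb h21 hR] at this
    omega
  have hmod := ncard_modEq_one (P := P) (O := F) (smul_self hu)
    (fun v hv T hT => fixed_smul h21 hu hv hT)
  have hle : F.ncard ≤ 21 := h21 ▸ Set.ncard_le_card _
  by_contra hu1
  rcases (show F.ncard = 11 ∨ F.ncard = 16 ∨ F.ncard = 21 by omega) with h | h | h
  · -- the centralizer of `u` is transitive on its fixed points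
    refine not_eleven_dvd h21 ?_
    have horb : MulAction.orbit ↥(centralizer ({u} : Set G)) P = F := by
      refine Set.Subset.antisymm ?_ fun T hT => ?_
      · rintro _ ⟨⟨v, hv⟩, rfl⟩
        show u • v • P = v • P
        have hc : v * u = u * v := mem_centralizer_singleton_iff.mp hv
        rw [smul_smul, ← hc, ← smul_smul, smul_self hu]
      · have huT : u ∈ (T : Subgroup G) := mem_of_fixes hu hT
        have hle1 : (P : Subgroup G) ≤ centralizer {u} := fun v hv =>
          mem_centralizer_singleton_iff.mpr (commute_of_mem h21 hv hu).eq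
        have hle2 : (T : Subgroup G) ≤ centralizer {u} := fun v hv =>
          mem_centralizer_singleton_iff.mpr (commute_of_mem h21 hv huT).eq
        obtain ⟨v, hv⟩ := exists_smul_eq ↥(centralizer ({u} : Set G)) (P.subtype hle1) (T.subtype hle2)
        refine ⟨v, ?_⟩
        rw [Sylow.smul_subtype hle1] at hv
        exact Sylow.subtype_injective hv
    calc 11 = F.ncard := h.symm
      _ ∣ Nat.card ↥(centralizer ({u} : Set G)) := by
          rw [← horb, ← MulAction.index_stabilizer]; exact index_dvd_card _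
      _ ∣ Nat.card G := card_subgroup_dvd_card _
  · -- `u` is a 5-cycle
    refine not_eleven_dvd h21 ?_
    have := Fintype.ofFinite Ω
    have hcard : Fintype.card Ω = 21 := by rw [← Nat.card_eq_fintype_card, h21]
    set φ := MulAction.toPermHom G Ω
    have hinj : Function.Injective φ := fun a b hab => by
      refine mul_inv_eq_one.mp (faithful h21 fun Q => ?_)
      rw [mul_smul]
      have := Equiv.Perm.congr_fun hab (b⁻¹ • Q)
      simpa [φ] using this
    have hord : orderOf (φ u) = 5 := by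
      rw [orderOf_injective φ hinj]
      exact orderOf_eq_prime (pow_five h21 hu) hu1
    have hsupp : (φ u).support.card = 5 := by
      have : ((φ u).support : Set Ω) = Fᶜ := by
        ext T
        simp [φ, hF]
      rw [← Set.ncard_coe_finset, this, Set.ncard_compl, h21, h]
    have hcyc : (φ u).IsCycle :=
      Equiv.Perm.isCycle_of_prime_order (by rw [hord]; norm_num) (by rw [hord, hsupp]; norm_num)
    have : Nontrivial Ω := Finite.one_lt_card_iff_nontrivial.mp (by omega)
    have hprimG : IsPreprimitive G Ω := by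
      rw [← isCoatom_stabilizer_iff_preprimitive (G := G) P]
      refine ⟨fun htop => ?_, fun M hM => ?_⟩
      · have := MulAction.index_stabilizer_of_transitive (G := G) P
        rw [htop, index_top, h21] at this
        omega
      · by_contra hMtop
        have hN : MulAction.stabilizer G P = normalizer ((P : Subgroup G) : Set G) :=
          Sylow.stabilizer_eq_normalizer P
        rw [hN] at hM
        have hPM : (P : Subgroup G) ≤ M := Subgroup.le_normalizer.trans hM.le
        have hidx : M.index * (normalizer ((P : Subgroup G) : Set G)).relIndex M = 21 := by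
          rw [mul_comm, relIndex_mul_index hM.le, ← card_sylow_eq_index P, h21]
        have hn : Nat.card (Sylow 5 ↥M) = (normalizer ((P : Subgroup G) : Set G)).relIndex M := by
          rw [card_sylow_eq_index (P.subtype hPM), Sylow.coe_subtype, ← subgroupOf_normalizer_eq hPM]
          rfl
        have hm := card_sylow_modEq_one 5 ↥M
        rw [hn, Nat.ModEq] at hm
        have h1 : M.index ≠ 1 := fun e => hMtop (index_eq_one.mp e)
        have hd : (normalizer ((P : Subgroup G) : Set G)).relIndex M ∣ 21 :=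
          Dvd.intro_left _ hidx
        have key : ∀ e ∈ Nat.divisors 21, e % 5 = 1 → e = 1 ∨ e = 21 := by decide
        rcases key _ (Nat.mem_divisors.mpr ⟨hd, by norm_num⟩) hm with e | e
        · exact hM.not_ge (relIndex_eq_one.mp e)
        · rw [e] at hidx
          omega
    have hprim : IsPreprimitive φ.range Ω := by
      let f : Ω →ₑ[φ.rangeRestrict] Ω := { toFun := id, map_smul' := fun g T => rfl }
      exact IsPreprimitive.of_surjective (f := f) Function.surjective_id
    have halt := PermP.alternatingGroup_le_of_primeCycle φ.range hprim (p := 5) (by norm_num)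
      (by rw [hcard]; norm_num) hcyc hsupp ⟨u, rfl⟩
    have hcr : Nat.card ↥φ.range = Nat.card G :=
      Nat.card_congr (MonoidHom.ofInjective hinj).toEquiv.symm
    rw [← hcr]
    refine dvd_trans ?_ (Subgroup.card_dvd_of_le halt)
    have h3 := two_mul_nat_card_alternatingGroup (α := Ω)
    rw [Nat.card_perm, h21] at h3
    have : 11 ∣ 2 * Nat.card ↥(alternatingGroup Ω) := h3 ▸ (by norm_num : Nat.Prime 11).dvd_factorial.mpr (by norm_num)
    exact ((Nat.Prime.dvd_mul (by norm_num)).mp this).resolve_left (by norm_num)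
  · refine hu1 (faithful h21 fun T => ?_)
    have : F = Set.univ := by
      refine Set.eq_of_subset_of_ncard_le (Set.subset_univ _) ?_
      rw [Set.ncard_univ, h21, h]
    exact (this.symm ▸ Set.mem_univ T : T ∈ F)

/-! ### Involutions fixing `P` -/

omit [Finite G] [IsSimpleGroup G] in
theorem inv_mul_self {s : G} (hs : orderOf s = 2) : s * s = 1 := by
  rw [← pow_two, ← hs, pow_orderOf_eq_one]

omit [Finite G] [IsSimpleGroup G] in
theorem smul_smul_self {s : G} (hs : orderOf s = 2) (R : Ω) : s • s • R = R := by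
  rw [smul_smul, inv_mul_self hs, one_smul]

omit [IsSimpleGroup G] in
theorem conj_mem_of_fixes {P : Ω} {s u : G} (hsP : s • P = P) (hu : u ∈ (P : Subgroup G)) :
    s * u * s⁻¹ ∈ (P : Subgroup G) :=
  (Subgroup.mem_normalizer_iff.mp (Sylow.smul_eq_iff_mem_normalizer.mp hsP) u).mp hu

omit [Finite G] [IsSimpleGroup G] in
theorem smul_conj (s u : G) (R : Ω) : s • u • R = (s * u * s⁻¹) • s • R := by
  rw [smul_smul, smul_smul]
  congr 1
  group

theorem pow_smul_congr (h21 : Nat.card Ω = 21) {P R : Ω} {x y : G} (hx : x ∈ (P : Subgroup G))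
    (hy : y ∈ (P : Subgroup G)) (h : x • R = y • R) (a : ℕ) : x ^ a • R = y ^ a • R := by
  induction a with
  | zero => simp
  | succ a ih =>
    rw [pow_succ, mul_smul, h, smul_smul, (commute_of_mem h21 (pow_mem hx a) hy).eq, mul_smul, ih,
      smul_smul, ← pow_succ']

theorem midpoint (h21 : Nat.card Ω = 21) {P R : Ω} {s v : G} (hs : orderOf s = 2)
    (hsP : s • P = P) (hv : v ∈ (P : Subgroup G)) (h : s • R = v • R) :
    s • v ^ 3 • R = v ^ 3 • R := by
  have hv' := conj_mem_of_fixes hsP hv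
  have h1 : (s * v * s⁻¹) • R = v⁻¹ • R := by
    have h2 : (s * v * s⁻¹) • v • R = R := by
      rw [← h, ← smul_conj]
      exact (congrArg (s • ·) h).symm.trans (smul_smul_self hs R)
    rw [smul_smul, (commute_of_mem h21 hv' hv).eq, mul_smul] at h2
    exact eq_inv_smul_iff.mpr h2
  rw [smul_conj, h, smul_smul, (commute_of_mem h21 (conj_mem_of_fixes hsP (pow_mem hv 3)) hv).eq,
    mul_smul, ← conj_pow, pow_smul_congr h21 hv' (inv_mem hv) h1 3, smul_smul]
  congr 1
  calc v * v⁻¹ ^ 3 = v⁻¹ ^ 2 := by group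
    _ = v⁻¹ ^ 2 * v ^ 5 := by rw [pow_five h21 hv, mul_one]
    _ = v ^ 3 := by group

theorem fixed_all_of_two (h21 : Nat.card Ω = 21) {P R : Ω} {s : G}
    (hsP : s • P = P) (hR : R ≠ P) (hsR : s • R = R) {u₀ : G} (hu₀ : u₀ ∈ (P : Subgroup G))
    (hmove : u₀ • R ≠ R) (hfix : s • u₀ • R = u₀ • R) :
    ∀ u ∈ (P : Subgroup G), s • u • R = u • R := by
  intro u hu
  obtain ⟨a, ha⟩ := exists_pow_smul h21 hR hu₀ hmove (mem_orb.mpr ⟨u, hu, rfl⟩)
  rw [smul_conj, hsR] at hfix
  rw [← ha, smul_conj, hsR, ← conj_pow]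
  exact pow_smul_congr h21 (conj_mem_of_fixes hsP hu₀) hu₀ hfix a

theorem fix_or_invert (h21 : Nat.card Ω = 21) {P R : Ω} {s : G} (hs : orderOf s = 2)
    (hsP : s • P = P) (hR : R ≠ P) (hsR : s • R = R) :
    (∀ u ∈ (P : Subgroup G), s • u • R = u • R) ∨
      (∀ u ∈ (P : Subgroup G), s • u • R = u⁻¹ • R) := by
  by_cases h : ∃ u₀ ∈ (P : Subgroup G), u₀ • R ≠ R ∧ s • u₀ • R = u₀ • R
  · obtain ⟨u₀, hu₀, hmove, hfix⟩ := h
    exact .inl (fixed_all_of_two h21 hsP hR hsR hu₀ hmove hfix)
  · refine .inr fun u hu => ?_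
    push Not at h
    have hu' := conj_mem_of_fixes hsP hu
    set v := s * u * s⁻¹ * u⁻¹
    have hv : v ∈ (P : Subgroup G) := mul_mem hu' (inv_mem hu)
    have hsv : s • u • R = v • u • R := by
      rw [smul_conj, hsR, smul_smul]
      congr 1
      simp [v, mul_assoc]
    have hm := midpoint h21 hs hsP hv hsv
    rw [smul_smul (v ^ 3) u R] at hm
    have hfixR : (v ^ 3 * u) • R = R := by
      by_contra hne
      exact h _ (mul_mem (pow_mem hv 3) hu) hne hm
    have h2 : (v ^ 3 * u) ^ 2 • R = R := by rw [pow_two, mul_smul, hfixR, hfixR]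
    rw [(commute_of_mem h21 (pow_mem hv 3) hu).mul_pow, ← pow_mul,
      show v ^ (3 * 2) = v by rw [show 3 * 2 = 5 + 1 by rfl, pow_succ, pow_five h21 hv, one_mul]] at h2
    rw [hsv, eq_inv_smul_iff, smul_smul, smul_smul]
    refine Eq.trans ?_ h2
    congr 1
    rw [(commute_of_mem h21 hu hv).eq, pow_two, mul_assoc]

theorem fixedBy_ncard_mod_four (h21 : Nat.card Ω = 21) {s : G} (hs : orderOf s = 2) :
    (MulAction.fixedBy Ω s).ncard % 4 = 1 := by
  classical
  have := Fintype.ofFinite Ω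
  set φ := MulAction.toPermHom G Ω
  have hsign : Equiv.Perm.sign (φ s) = 1 := by
    rcases injective_or_trivial (Equiv.Perm.sign.comp φ) with h | h
    · exact absurd ⟨⟨fun a b => h (by simp [mul_comm])⟩⟩ (not_comm h21)
    · exact h s
  have hne : φ s ≠ 1 := fun h => by
    rw [faithful h21 (g := s) fun Q => by simpa [φ] using Equiv.Perm.congr_fun h Q] at hs
    simp at hs
  have hord : orderOf (φ s) = 2 :=
    orderOf_eq_prime (by rw [← map_pow, pow_two, inv_mul_self hs, map_one]) hne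
  obtain ⟨k, hk⟩ := Equiv.Perm.cycleType_prime_order (σ := φ s) (by rw [hord]; norm_num)
  rw [hord] at hk
  rw [Equiv.Perm.sign_of_cycleType, hk, Multiset.sum_replicate, Multiset.card_replicate,
    smul_eq_mul] at hsign
  have heven : Even ((k + 1) * 2 + (k + 1)) := by
    by_contra hodd
    rw [(Nat.not_even_iff_odd.mp hodd).neg_one_pow] at hsign
    exact absurd hsign (by decide)
  obtain ⟨j, hj⟩ := heven
  have hsupp : (φ s).support.card = (k + 1) * 2 := by
    rw [← Equiv.Perm.sum_cycleType, hk, Multiset.sum_replicate, smul_eq_mul]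
  have heq : MulAction.fixedBy Ω s = (((φ s).support : Finset Ω) : Set Ω)ᶜ := by
    ext T
    simp [φ]
  have hle : (φ s).support.card ≤ 21 := by
    rw [← h21, Nat.card_eq_fintype_card]
    exact Finset.card_le_univ _
  rw [heq, Set.ncard_compl, Set.ncard_coe_finset, h21]
  omega

theorem orb_eq_of_mem {P R R' : Ω} (h : R' ∈ orb P R) : orb P R' = orb P R :=
  MulAction.orbit_eq_iff.mpr h

/-- An involution fixing two points fixes every orbit of `P` on the other points. -/
theorem orbits_invariant (h21 : Nat.card Ω = 21) {P Q : Ω} {s : G} (hs : orderOf s = 2)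
    (hsP : s • P = P) (hQ : Q ≠ P) (hsQ : s • Q = Q) {R : Ω} (hR : R ≠ P) :
    ∃ v ∈ (P : Subgroup G), v • R = s • R := by
  classical
  have := Fintype.ofFinite Ω
  set W := Finset.univ.filter fun R : Ω => R ≠ P ∧ s • R ∈ orb P R with hW
  suffices hall : W.card = 20 by
    have hsub : W ⊆ Finset.univ.erase P := fun T hT => by
      simp only [hW, Finset.mem_filter] at hT
      simpa using hT.2.1
    have := Finset.eq_of_subset_of_card_le hsub (by
      rw [hall, Finset.card_erase_of_mem (Finset.mem_univ _), Finset.card_univ,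
        ← Nat.card_eq_fintype_card, h21])
    have hRW : R ∈ W := this ▸ Finset.mem_erase.mpr ⟨hR, Finset.mem_univ _⟩
    simp only [hW, Finset.mem_filter] at hRW
    exact mem_orb.mp hRW.2.2
  have h5 : W.card % 5 = 0 := by
    have hm := ncard_modEq_one (P := P) (O := (↑(insert P W) : Set Ω)) (by simp) ?_
    · rw [Set.ncard_coe_finset, Finset.card_insert_of_notMem (by simp [hW])] at hm
      omega
    · intro u hu T hT
      simp only [Finset.coe_insert, Set.mem_insert_iff, Finset.mem_coe] at hT ⊢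
      rcases hT with rfl | hT
      · exact .inl (smul_self hu)
      · refine .inr ?_
        simp only [hW, Finset.mem_filter, Finset.mem_univ, true_and] at hT ⊢
        refine ⟨fun e => hT.1 ?_, ?_⟩
        · rw [← inv_smul_smul u T, e]
          exact smul_self (inv_mem hu)
        · rw [orb_eq_of_mem (mem_orb.mpr ⟨u, hu, rfl⟩), smul_conj]
          obtain ⟨v, hv, hv'⟩ := mem_orb.mp hT.2
          exact mem_orb.mpr
            ⟨_, mul_mem (conj_mem_of_fixes hsP hu) hv, by rw [mul_smul, hv']⟩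
  have h4 : W.card % 4 = 0 := by
    set T := W.filter fun R => s • R = R
    set M := W.filter fun R => ¬ s • R = R
    have hTM : T.card + M.card = W.card := Finset.card_filter_add_card_filter_not _
    have hT : T.card + 1 = (MulAction.fixedBy Ω s).ncard := by
      have : MulAction.fixedBy Ω s = ↑(insert P T) := by
        ext R
        simp only [MulAction.mem_fixedBy, Finset.coe_insert, Set.mem_insert_iff, Finset.mem_coe]
        refine ⟨fun h => ?_, ?_⟩
        · by_cases hRP : R = P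
          · exact .inl hRP
          · exact .inr (by simp [T, hW, hRP, h])
        · rintro (rfl | h)
          · exact hsP
          · simp only [T, Finset.mem_filter] at h
            exact h.2
      rw [this, Set.ncard_coe_finset, Finset.card_insert_of_notMem (by simp [T, hW])]
    have := fixedBy_ncard_mod_four h21 hs
    -- every moved point of `W` has a unique fixed point in its orbit
    have hmid : ∀ R ∈ M, ∃ b ∈ orb P R, s • b = b := by
      intro R hR
      simp only [M, hW, Finset.mem_filter] at hR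
      obtain ⟨v, hv, hv'⟩ := mem_orb.mp hR.1.2.2
      exact ⟨v ^ 3 • R, mem_orb.mpr ⟨_, pow_mem hv 3, rfl⟩, midpoint h21 hs hsP hv hv'.symm⟩
    choose! g hg1 hg2 using hmid
    have hfib : ∀ b ∈ M.image g, (M.filter fun R => g R = b).card = 4 := by
      intro b hb
      obtain ⟨R₀, hR₀, rfl⟩ := Finset.mem_image.mp hb
      set b := g R₀
      have hR₀' : R₀ ≠ P ∧ s • R₀ ≠ R₀ := by
        simp only [M, hW, Finset.mem_filter] at hR₀
        exact ⟨hR₀.1.2.1, hR₀.2⟩
      have hbP : b ≠ P := fun e => self_notMem_orb hR₀'.1 (e ▸ hg1 R₀ hR₀)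
      obtain ⟨u₀, hu₀, hu₀'⟩ := mem_orb.mp
        (show R₀ ∈ orb P b by rw [orb_eq_of_mem (hg1 R₀ hR₀)]; exact mem_orbit_self R₀)
      have hone : ∀ T ∈ orb P b, s • T = T → T = b := by
        intro T hT hsT
        by_contra hne
        obtain ⟨u, hu, rfl⟩ := mem_orb.mp hT
        refine hR₀'.2 ?_
        rw [← hu₀']
        exact fixed_all_of_two h21 hsP hbP (hg2 R₀ hR₀) hu hne hsT u₀ hu₀
      have hset : (↑(M.filter fun R => g R = b) : Set Ω) = orb P b \ {b} := by
        ext T
        simp only [Finset.coe_filter, Set.mem_setOf_eq, Set.mem_sdiff, Set.mem_singleton_iff]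
        constructor
        · rintro ⟨hTM, hTb⟩
          have := hg1 T hTM
          rw [hTb] at this
          refine ⟨by rw [orb_eq_of_mem this]; exact mem_orbit_self T, fun e => ?_⟩
          simp only [M, Finset.mem_filter] at hTM
          exact hTM.2 (e ▸ hg2 R₀ hR₀)
        · rintro ⟨hT, hne⟩
          have hTM : T ∈ M := by
            obtain ⟨u, hu, rfl⟩ := mem_orb.mp hT
            simp only [M, hW, Finset.mem_filter, Finset.mem_univ, true_and]
            refine ⟨⟨fun e => hbP ?_, ?_⟩, fun e => hne (hone _ hT e)⟩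
            · rw [← inv_smul_smul u b, e]
              exact smul_self (inv_mem hu)
            · rw [orb_eq_of_mem hT, smul_conj, hg2 R₀ hR₀]
              exact mem_orb.mpr ⟨_, conj_mem_of_fixes hsP hu, rfl⟩
          refine ⟨hTM, hone _ ?_ (hg2 T hTM)⟩
          rw [← orb_eq_of_mem hT]
          exact hg1 T hTM
      rw [← Set.ncard_coe_finset, hset, Set.ncard_sdiff_singleton_of_mem (mem_orbit_self b),
        card_orb h21 hbP]
    have hM : M.card = (M.image g).card * 4 := by
      rw [Finset.card_eq_sum_card_image g M, Finset.sum_congr rfl hfib, Finset.sum_const,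
        smul_eq_mul]
    omega
  have hQW : Q ∈ W := by simp [hW, hQ, hsQ]
  have hpos : 0 < W.card := Finset.card_pos.mpr ⟨Q, hQW⟩
  have hle : W.card ≤ 21 := by rw [← h21, Nat.card_eq_fintype_card]; exact Finset.card_le_univ _
  omega

theorem exists_fixed_in_orb (h21 : Nat.card Ω = 21) {P Q : Ω} {s : G} (hs : orderOf s = 2)
    (hsP : s • P = P) (hQ : Q ≠ P) (hsQ : s • Q = Q) {R : Ω} (hR : R ≠ P) :
    ∃ b ∈ orb P R, b ≠ P ∧ s • b = b := by
  obtain ⟨v, hv, hv'⟩ := orbits_invariant h21 hs hsP hQ hsQ hR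
  have hm : v ^ 3 • R ∈ orb P R := mem_orb.mpr ⟨_, pow_mem hv 3, rfl⟩
  exact ⟨v ^ 3 • R, hm, fun e => self_notMem_orb hR (e ▸ hm), midpoint h21 hs hsP hv hv'.symm⟩

/-- An involution fixing two points inverts `P`. -/
theorem inverts (h21 : Nat.card Ω = 21) {P Q : Ω} {s : G} (hs : orderOf s = 2)
    (hsP : s • P = P) (hQ : Q ≠ P) (hsQ : s • Q = Q) :
    ∀ u ∈ (P : Subgroup G), s * u * s⁻¹ = u⁻¹ := by
  have hplus : ∀ R₁ R₂ : Ω, R₁ ≠ P → R₂ ≠ P → R₂ ∉ orb P R₁ → s • R₁ = R₁ → s • R₂ = R₂ →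
      (∀ u ∈ (P : Subgroup G), s • u • R₁ = u • R₁) →
      ¬ ∀ u ∈ (P : Subgroup G), s • u • R₂ = u • R₂ := by
    intro R₁ R₂ h1 h2 h12 f1 f2 p1 p2
    have hc : ∀ u ∈ (P : Subgroup G), s * u * s⁻¹ = u := by
      intro u hu
      have hu' := conj_mem_of_fixes hsP hu
      have hb : ∀ R : Ω, s • R = R → s • u • R = u • R → ((s * u * s⁻¹)⁻¹ * u) • R = R := by
        intro R fR pR
        rw [smul_conj, fR] at pR
        rw [mul_smul, ← pR, inv_smul_smul]
      exact inv_mul_eq_one.mp (eq_one_of_fixes_two h21 h1 h2 h12 (mul_mem (inv_mem hu') hu)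
        (hb R₁ f1 (p1 u hu)) (hb R₂ f2 (p2 u hu)))
    have : s = 1 := by
      refine faithful h21 fun R => ?_
      by_cases hR : R = P
      · rw [hR]; exact hsP
      · obtain ⟨b, hb, -, hsb⟩ := exists_fixed_in_orb h21 hs hsP hQ hsQ hR
        obtain ⟨u, hu, rfl⟩ := mem_orb.mp
          (show R ∈ orb P b by rw [orb_eq_of_mem hb]; exact mem_orbit_self R)
        rw [smul_conj, hsb, hc u hu]
    simp [this] at hs
  have hout : ∀ A B : Ω, A ≠ P → B ≠ P →
      ∃ R, R ≠ P ∧ s • R = R ∧ R ∉ orb P A ∧ R ∉ orb P B := by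
    intro A B hA hB
    obtain ⟨T, hT⟩ : ∃ T, T ∉ insert P (orb P A ∪ orb P B) := by
      by_contra hall
      push Not at hall
      have h1 := Set.ncard_le_ncard (s := (Set.univ : Set Ω)) fun T _ => hall T
      have h2 := Set.ncard_union_le (orb P A) (orb P B)
      have h3 := Set.ncard_insert_le P (orb P A ∪ orb P B)
      rw [Set.ncard_univ, h21] at h1
      rw [card_orb h21 hA, card_orb h21 hB] at h2
      omega
    simp only [Set.mem_insert_iff, Set.mem_union, not_or] at hT
    obtain ⟨b, hb, hbP, hsb⟩ := exists_fixed_in_orb h21 hs hsP hQ hsQ hT.1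
    have hTb : T ∈ orb P b := by rw [orb_eq_of_mem hb]; exact mem_orbit_self T
    exact ⟨b, hbP, hsb, fun h => hT.2.1 (orb_eq_of_mem h ▸ hTb),
      fun h => hT.2.2 (orb_eq_of_mem h ▸ hTb)⟩
  obtain ⟨A, B, hA, hB, hAB, fA, fB, mA, mB⟩ : ∃ A B : Ω, A ≠ P ∧ B ≠ P ∧ B ∉ orb P A ∧
      s • A = A ∧ s • B = B ∧ (∀ u ∈ (P : Subgroup G), s • u • A = u⁻¹ • A) ∧
      (∀ u ∈ (P : Subgroup G), s • u • B = u⁻¹ • B) := by
    obtain ⟨R₂, h2, f2, h12, -⟩ := hout Q Q hQ hQ
    obtain ⟨R₃, h3, f3, h13, h23⟩ := hout Q R₂ hQ h2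
    rcases fix_or_invert h21 hs hsP hQ hsQ with p1 | m1
    · refine ⟨R₂, R₃, h2, h3, h23, f2, f3, ?_, ?_⟩
      · exact (fix_or_invert h21 hs hsP h2 f2).resolve_left (hplus Q R₂ hQ h2 h12 hsQ f2 p1)
      · exact (fix_or_invert h21 hs hsP h3 f3).resolve_left (hplus Q R₃ hQ h3 h13 hsQ f3 p1)
    · rcases fix_or_invert h21 hs hsP h2 f2 with p2 | m2
      · exact ⟨Q, R₃, hQ, h3, h13, hsQ, f3, m1,
          (fix_or_invert h21 hs hsP h3 f3).resolve_left (hplus R₂ R₃ h2 h3 h23 f2 f3 p2)⟩
      · exact ⟨Q, R₂, hQ, h2, h12, hsQ, f2, m1, m2⟩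
  intro u hu
  have hu' := conj_mem_of_fixes hsP hu
  have ha : ∀ R : Ω, s • R = R → s • u • R = u⁻¹ • R → (u * (s * u * s⁻¹)) • R = R := by
    intro R fR mR
    rw [smul_conj, fR] at mR
    rw [mul_smul, mR, smul_inv_smul]
  exact (inv_eq_of_mul_eq_one_right (eq_one_of_fixes_two h21 hA hB hAB (mul_mem hu hu')
    (ha A fA (mA u hu)) (ha B fB (mB u hu)))).symm

/-- Commuting involutions fixing `P` and further points are equal. -/
theorem eq_of_commute (h21 : Nat.card Ω = 21) {P Q Q' : Ω} {s t : G} (hs : orderOf s = 2)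
    (ht : orderOf t = 2) (hc : Commute s t) (hsP : s • P = P) (htP : t • P = P) (hQ : Q ≠ P)
    (hsQ : s • Q = Q) (hQ' : Q' ≠ P) (htQ : t • Q' = Q') : s = t := by
  have h : s * t = 1 := by
    refine faithful h21 fun R => ?_
    by_cases hR : R = P
    · rw [hR, mul_smul, htP, hsP]
    · obtain ⟨v, hv, hv'⟩ := orbits_invariant h21 hs hsP hQ hsQ hR
      obtain ⟨w, hw, hw'⟩ := orbits_invariant h21 ht htP hQ' htQ hR
      have hd : (s * t) • R = (w⁻¹ * v) • R := by
        rw [mul_smul, ← hw', smul_conj, inverts h21 hs hsP hQ hsQ w hw, ← hv', mul_smul]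
      set z := w⁻¹ * v
      have hz : z ∈ (P : Subgroup G) := mul_mem (inv_mem hw) hv
      have hzc : (s * t) * z * (s * t)⁻¹ = z := by
        have e1 := inverts h21 ht htP hQ' htQ z hz
        have e2 := inverts h21 hs hsP hQ hsQ z⁻¹ (inv_mem hz)
        rw [inv_inv] at e2
        calc (s * t) * z * (s * t)⁻¹ = s * (t * z * t⁻¹) * s⁻¹ := by group
          _ = z := by rw [e1, e2]
      have h2 : (z ^ 2) • R = R := by
        have hsq : (s * t) * (s * t) = 1 := by
          rw [mul_assoc, ← mul_assoc t s t, ← hc.eq, mul_assoc s t t, inv_mul_self ht, mul_one,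
            inv_mul_self hs]
        calc (z ^ 2) • R = z • (s * t) • R := by rw [hd, smul_smul, pow_two]
          _ = (s * t) • z • R := by
              conv_rhs => rw [smul_conj (s * t) z R, hzc]
          _ = R := by rw [← hd, smul_smul, hsq, one_smul]
      rw [hd]
      calc z • R = (z ^ 2) ^ 3 • R := by
            rw [← pow_mul, show 2 * 3 = 5 + 1 by rfl, pow_succ, pow_five h21 hz, one_mul]
        _ = R := by
            rw [pow_succ, pow_succ, pow_succ, pow_zero, one_mul, mul_smul, mul_smul, h2, h2, h2]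
  calc s = s * (t * t) := by rw [inv_mul_self ht, mul_one]
    _ = t := by rw [← mul_assoc, h, one_mul]

theorem not_fixes_two (h21 : Nat.card Ω = 21) {P Q : Ω} {w : G} (hw : orderOf w = 2)
    (hwP : w • P = P) (hQ : Q ≠ P) : w • Q ≠ Q := by
  intro hwQ
  have := Fact.mk Nat.prime_two
  have hiso : Cfsg.IsIsolatedInvolution w := by
    refine ⟨hw, fun g hg => ?_⟩
    set t := g * w * g⁻¹
    have ht : orderOf t = 2 := by
      rw [show t = MulAut.conj g w from rfl, MulEquiv.orderOf_eq, hw]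
    let X : SubMulAction ↥(zpowers t) Ω :=
      { carrier := MulAction.fixedBy Ω w
        smul_mem' := fun m R hR => by
          obtain ⟨i, hi⟩ := mem_zpowers_iff.mp m.2
          show w • (m : G) • R = (m : G) • R
          rw [smul_smul, ← hi, (hg.zpow_right i).eq, mul_smul]
          exact congrArg (t ^ i • ·) hR }
    have hp : IsPGroup 2 ↥(zpowers t) := IsPGroup.of_card (n := 1) (by rw [Nat.card_zpowers, ht, pow_one])
    obtain ⟨⟨R, hR⟩, hRt⟩ := hp.nonempty_fixed_point_of_prime_not_dvd_card ↥X (by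
      have h4 := fixedBy_ncard_mod_four h21 hw
      have hc : Nat.card ↥X = (MulAction.fixedBy Ω w).ncard := Nat.card_coe_set_eq _
      rw [hc]
      omega)
    have htR : t • R = R := congrArg Subtype.val (hRt ⟨t, mem_zpowers t⟩)
    obtain ⟨Q₁, hQ₁, hwQ₁⟩ : ∃ Q₁, Q₁ ≠ R ∧ w • Q₁ = Q₁ := by
      by_cases e : P = R
      · exact ⟨Q, e ▸ hQ, hwQ⟩
      · exact ⟨P, e, hwP⟩
    have htg : ∀ T : Ω, w • T = T → t • g • T = g • T := fun T hT => by
      rw [smul_smul, show t * g = g * w by simp [t, mul_assoc], mul_smul, hT]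
    obtain ⟨Q₂, hQ₂, htQ₂⟩ : ∃ Q₂, Q₂ ≠ R ∧ t • Q₂ = Q₂ := by
      by_cases e : g • P = R
      · exact ⟨g • Q, fun e' => hQ (smul_left_cancel g (e'.trans e.symm)), htg Q hwQ⟩
      · exact ⟨g • P, e, htg P hwP⟩
    exact eq_of_commute h21 ht hw hg.symm htR hR hQ₂ htQ₂ hQ₁ hwQ₁
  obtain ⟨N, hN, hNodd, hcom⟩ := TwoFusion.exists_odd_normal_of_isolated hiso
  rcases hN.eq_bot_or_eq_top with h | h
  · have hc : w ∈ center G := Subgroup.mem_center_iff.mpr fun g => by
      have := hcom g
      rw [h, Subgroup.mem_bot, mul_inv_eq_one, mul_inv_eq_iff_eq_mul] at this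
      exact this.symm
    rw [center_eq_bot (not_comm h21), Subgroup.mem_bot] at hc
    simp [hc] at hw
  · rw [h, Subgroup.card_top] at hNodd
    exact Nat.not_even_iff_odd.mpr hNodd (even_iff_two_dvd.mpr (hw ▸ orderOf_dvd_natCard w))

/-! ### The contradiction -/

theorem exists_two_orbits (h21 : Nat.card Ω = 21) {P R : Ω} (hR : R ≠ P) :
    ∃ R', R' ≠ P ∧ R' ∉ orb P R := by
  by_contra hall
  push Not at hall
  have h1 := Set.ncard_le_ncard (s := (Set.univ : Set Ω)) (t := insert P (orb P R)) fun T _ => by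
    by_cases hT : T = P
    · exact .inl hT
    · exact .inr (hall T hT)
  have h2 := Set.ncard_insert_le P (orb P R)
  rw [Set.ncard_univ, h21] at h1
  rw [card_orb h21 hR] at h2
  omega

theorem point_ne_of_smul {P R : Ω} {u : G} (hu : u ∈ (P : Subgroup G)) (hR : R ≠ P) : u • R ≠ P :=
  fun e => hR (by rw [← inv_smul_smul u R, e, smul_self (inv_mem hu)])

/-- An odd power is `1` modulo `5` only for bases that are `1` modulo `5`. -/
theorem mod_five_eq_one {a m : ℕ} (hm : ¬ 2 ∣ m) (h : a ^ m % 5 = 1) : a % 5 = 1 := by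
  obtain ⟨k, rfl⟩ : ∃ k, m = 2 * k + 1 := ⟨m / 2, by omega⟩
  have key : ∀ x < 5, ∀ j, x ^ (2 * j + 1) % 5 = 1 → x = 1 := by
    intro x hx j
    have hres : ∀ i, x ^ (2 * i + 1) % 5 = x ∨ x ^ (2 * i + 1) % 5 = x * (x * x) % 5 := by
      intro i
      induction i with
      | zero => left; simp [Nat.mod_eq_of_lt hx]
      | succ i ih =>
        rw [show 2 * (i + 1) + 1 = (2 * i + 1) + 2 by ring, pow_add, Nat.mul_mod]
        rcases ih with h | h <;> rw [h] <;> interval_cases x <;> simp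
    intro hj
    rcases hres j with h | h <;> rw [h] at hj <;> interval_cases x <;> simp at hj ⊢
  refine key _ (Nat.mod_lt _ (by norm_num)) k ?_
  rw [← Nat.pow_mod]
  exact h

/-- An element of odd prime power order prime to `5` normalizing `P` centralizes it. -/
theorem commute_of_odd (h21 : Nat.card Ω = 21) {P : Ω} {r j : ℕ} (hr : r.Prime) (hr2 : r ≠ 2)
    (hr5 : r ≠ 5) {g : G} (hg : orderOf g = r ^ j) (hgP : g • P = P) :
    ∀ u ∈ (P : Subgroup G), Commute g u := by
  have := Fact.mk hr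
  let X : SubMulAction ↥(zpowers g) Ω :=
    { carrier := {P}ᶜ
      smul_mem' := fun m R hR => fun e => hR (by
        obtain ⟨i, hi⟩ := mem_zpowers_iff.mp m.2
        have hmP : (m : G) • P = P := by
          rw [← hi]
          exact (MulAction.stabilizer G P).zpow_mem hgP i
        exact smul_left_cancel (m : G) (e.trans hmP.symm)) }
  have hp : IsPGroup r ↥(zpowers g) := IsPGroup.of_card (n := j) (by rw [Nat.card_zpowers, hg])
  obtain ⟨⟨R, hR⟩, hRg⟩ := hp.nonempty_fixed_point_of_prime_not_dvd_card ↥X (by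
    have hc : Nat.card ↥X = ({P}ᶜ : Set Ω).ncard := Nat.card_coe_set_eq _
    rw [hc, Set.ncard_compl, Set.ncard_singleton, h21]
    norm_num
    intro hd
    have h' : r ∣ 2 ^ 2 * 5 := hd
    rcases (Nat.Prime.dvd_mul hr).mp h' with h | h
    · exact hr2 ((Nat.prime_dvd_prime_iff_eq hr Nat.prime_two).mp (hr.dvd_of_dvd_pow h))
    · exact hr5 ((Nat.prime_dvd_prime_iff_eq hr (by norm_num)).mp h))
  have hgR : g • R = R := congrArg Subtype.val (hRg ⟨g, mem_zpowers g⟩)
  have hRP : R ≠ P := hR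
  obtain ⟨R', hR'P, hR'⟩ := exists_two_orbits h21 hRP
  set m := r ^ j
  have hm2 : ¬ 2 ∣ m := fun h => hr2
    ((Nat.prime_dvd_prime_iff_eq Nat.prime_two hr).mp (Nat.prime_two.dvd_of_dvd_pow h)).symm
  have hm5 : ¬ 5 ∣ m := fun h => hr5
    ((Nat.prime_dvd_prime_iff_eq (by norm_num) hr).mp ((by norm_num : Nat.Prime 5).dvd_of_dvd_pow h)).symm
  have hconjR : ∀ u ∈ (P : Subgroup G), u • R = R → (g * u * g⁻¹) • R = R := by
    intro u hu huR
    rw [← hgR, ← smul_conj, huR]
  -- `g` centralizes the stabilizer of `R`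
  have hfix : ∀ z ∈ (P : Subgroup G), z • R = R → g * z * g⁻¹ = z := by
    intro z hz hzR
    by_cases hz1 : z = 1
    · subst hz1; group
    have hmove : z • R' ≠ R' := fun e => hz1 (eq_one_of_fixes_two h21 hRP hR'P hR' hz hzR e)
    have hz' := conj_mem_of_fixes hgP hz
    obtain ⟨a, ha⟩ := exists_pow_smul h21 hR'P hz hmove (mem_orb.mpr ⟨_, hz', rfl⟩)
    have hza : g * z * g⁻¹ = z ^ a := by
      have hza' : (z ^ a) • R = R := by
        exact (MulAction.stabilizer G R).pow_mem hzR a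
      refine (inv_mul_eq_one.mp (eq_one_of_fixes_two h21 hRP hR'P hR'
        (mul_mem (inv_mem (pow_mem hz a)) hz') ?_ ?_)).symm
      · rw [mul_smul, hconjR z hz hzR, inv_smul_eq_iff, hza']
      · rw [mul_smul, ← ha, inv_smul_smul]
    have hiter : ∀ i : ℕ, g ^ i * z * (g ^ i)⁻¹ = z ^ (a ^ i) := by
      intro i
      induction i with
      | zero => simp
      | succ i ih =>
        calc g ^ (i + 1) * z * (g ^ (i + 1))⁻¹ = g ^ i * (g * z * g⁻¹) * (g ^ i)⁻¹ := by
              rw [pow_succ]; group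
          _ = (g ^ i * z * (g ^ i)⁻¹) ^ a := by rw [hza, conj_pow]
          _ = z ^ a ^ (i + 1) := by rw [ih, ← pow_mul, ← pow_succ]
    have hord : orderOf z = 5 := orderOf_eq_prime (pow_five h21 hz) hz1
    have hm := hiter m
    rw [show g ^ m = 1 by rw [← hg, pow_orderOf_eq_one], one_mul, inv_one, mul_one,
      ← pow_mod_orderOf, hord] at hm
    have ha5 : a ^ m % 5 = 1 := by
      have h1 : z ^ (a ^ m % 5) = z ^ 1 := by rw [pow_one]; exact hm.symm
      rw [pow_inj_mod, hord] at h1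
      simpa using h1
    have ha1 : a % 5 = 1 := mod_five_eq_one hm2 ha5
    rw [hza, ← pow_mod_orderOf, hord, ha1, pow_one]
  -- and hence all of `P`
  intro u hu
  have hu' := conj_mem_of_fixes hgP hu
  set z := g * u * g⁻¹ * u⁻¹ with hzdef
  have hz : z ∈ (P : Subgroup G) := mul_mem hu' (inv_mem hu)
  have hzR : z • R = R := by
    by_cases huR : u • R = R
    · rw [hzdef, mul_smul, inv_smul_eq_iff.mpr huR.symm, hconjR u hu huR]
    · obtain ⟨a, ha⟩ := exists_pow_smul h21 hRP hu huR
        (mem_orb.mpr ⟨_, conj_mem_of_fixes hgP hu, rfl⟩)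
      -- an odd automorphism of the orbit is trivial
      have hpw : ∀ i : ℕ, g ^ i • u • R = u ^ (a ^ i) • R := by
        intro i
        induction i with
        | zero => simp
        | succ i ih =>
          rw [pow_succ', mul_smul, ih, smul_conj, hgR, ← conj_pow,
            pow_smul_congr h21 hu' (pow_mem hu a) ha.symm, ← pow_mul, ← pow_succ']
      have hm := hpw m
      rw [show g ^ m = 1 by rw [← hg, pow_orderOf_eq_one], one_smul] at hm
      have hper : MulAction.period u R = 5 := by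
        have hd : MulAction.period u R ∣ 5 :=
          pow_smul_eq_iff_period_dvd.mp (by rw [pow_five h21 hu, one_smul])
        refine ((Nat.dvd_prime (by norm_num)).mp hd).resolve_left fun h => huR ?_
        have := pow_smul_eq_iff_period_dvd.mpr (show MulAction.period u R ∣ 1 from h.dvd)
        rwa [pow_one] at this
      have ha5 : a ^ m % 5 = 1 := by
        have hm' : u ^ (a ^ m % 5) • R = u ^ 1 • R := by
          have e : u ^ (a ^ m % MulAction.period u R) • R = u ^ (a ^ m) • R :=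
            MulAction.pow_mod_period_smul _
          rw [hper] at e
          rw [pow_one, e, ← hm]
        have hlt : a ^ m % 5 < 5 := Nat.mod_lt _ (by norm_num)
        rcases Nat.eq_zero_or_pos (a ^ m % 5) with h0 | h0
        · rw [h0, pow_zero, one_smul, pow_one] at hm'
          exact absurd hm'.symm huR
        · by_contra hne
          have h1 : u ^ (a ^ m % 5 - 1) • R = R := by
            apply smul_left_cancel (u ^ 1)
            rw [smul_smul, ← pow_add, Nat.add_sub_cancel' h0, hm']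
          rw [pow_smul_eq_iff_period_dvd, hper] at h1
          omega
      have ha1 : a % 5 = 1 := mod_five_eq_one hm2 ha5
      have hau : u ^ a • R = u • R := by
        have e : u ^ (a % MulAction.period u R) • R = u ^ a • R := MulAction.pow_mod_period_smul _
        rw [hper, ha1, pow_one] at e
        exact e.symm
      rw [hzdef, (commute_of_mem h21 hu' (inv_mem hu)).eq, mul_smul, ← ha, hau, inv_smul_smul]
  have hgz := hfix z hz hzR
  have hiter : ∀ i : ℕ, g ^ i * u * (g ^ i)⁻¹ = z ^ i * u := by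
    intro i
    induction i with
    | zero => simp
    | succ i ih =>
      calc g ^ (i + 1) * u * (g ^ (i + 1))⁻¹ = g * (g ^ i * u * (g ^ i)⁻¹) * g⁻¹ := by
            rw [pow_succ']; group
        _ = (g * z ^ i * g⁻¹) * (g * u * g⁻¹) := by rw [ih]; group
        _ = z ^ (i + 1) * u := by
            rw [← conj_pow, hgz, pow_succ, mul_assoc (z ^ i) z u, show z * u = g * u * g⁻¹ by simp [hzdef]]
  have hm := hiter m
  rw [show g ^ m = 1 by rw [← hg, pow_orderOf_eq_one], one_mul, inv_one, mul_one] at hm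
  have hz1 : z = 1 := by
    have h1 : z ^ m = 1 := mul_right_cancel (hm.symm.trans (one_mul u).symm)
    have h5 := orderOf_dvd_of_pow_eq_one (pow_five h21 hz)
    have hm' := orderOf_dvd_of_pow_eq_one h1
    rcases (Nat.dvd_prime (by norm_num)).mp h5 with h | h
    · exact orderOf_eq_one_iff.mp h
    · exact absurd (h ▸ hm') hm5
  exact mul_inv_eq_iff_eq_mul.mp (mul_inv_eq_one.mp hz1)

theorem two_dvd_card (h21 : Nat.card Ω = 21) : 2 ∣ Nat.card G := by
  by_contra h2
  obtain ⟨P⟩ : Nonempty Ω := inferInstance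
  have hN := card_sylow_mul_card_normalizer P
  have hG := not_comm h21
  have h5 : 5 ∣ Nat.card G := by
    obtain ⟨R, hR⟩ : ∃ R : Ω, R ≠ P := by
      by_contra h
      push Not at h
      have : Subsingleton Ω := ⟨fun A B => (h A).trans (h B).symm⟩
      rw [Nat.card_of_subsingleton P] at h21
      omega
    exact ((stabilizer_props h21 hR).1.symm.dvd.trans (index_dvd_card _)).trans
      (card_subgroup_dvd_card _)
  refine not_normalizer_le_centralizer hG h5 P ?_
  refine (eq_of_le_of_card_ge (centralizer_le_normalizer _) ?_).ge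
  refine Nat.le_of_dvd Nat.card_pos ?_
  rw [Nat.dvd_iff_prime_pow_dvd_dvd]
  intro r i hr hd
  have := Fact.mk hr
  obtain ⟨K, hK⟩ := Sylow.exists_subgroup_card_pow_prime r hd
  rw [← hK, Nat.card_congr (K.equivMapOfInjective _ (subtype_injective _)).toEquiv]
  refine card_dvd_of_le ?_
  rintro _ ⟨⟨g, hgN⟩, hgK, rfl⟩ u hu
  show u * g = g * u
  obtain ⟨j, -, hj⟩ := (Nat.dvd_prime_pow hr).mp (hK ▸ K.orderOf_dvd_natCard hgK)
  rw [← Subgroup.orderOf_coe] at hj
  have hgP : g • P = P := Sylow.smul_eq_iff_mem_normalizer.mpr hgN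
  by_cases hr5 : r = 5
  · subst hr5
    have hp : IsPGroup 5 ↥(zpowers g) := IsPGroup.of_card (n := j) (by rw [Nat.card_zpowers]; exact hj)
    have hmem : g ∈ zpowers g ⊓ normalizer ((P : Subgroup G) : Set G) := ⟨mem_zpowers g, hgN⟩
    exact commute_of_mem h21 hu ((hp.inf_normalizer_sylow P).le hmem).2
  · by_cases hr2 : r = 2
    · subst hr2
      rcases Nat.eq_zero_or_pos j with rfl | hj0
      · rw [pow_zero, orderOf_eq_one_iff] at hj
        simp only [] at hj
        rw [hj, mul_one, one_mul]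
      · exact absurd (((dvd_pow_self 2 hj0.ne').trans hj.symm.dvd).trans (orderOf_dvd_natCard _)) h2
    · exact (commute_of_odd h21 hr hr2 hr5 hj hgP u hu).eq.symm

theorem not_simple (h21 : Nat.card Ω = 21) : False := by
  classical
  have := Fact.mk Nat.prime_two
  have hG := not_comm h21
  have h4 : 4 ∣ Nat.card G := four_dvd_card hG (two_dvd_card h21)
  obtain ⟨S⟩ : Nonempty (Sylow 2 G) := inferInstance
  -- `S` fixes a point
  obtain ⟨P, hP⟩ := S.2.nonempty_fixed_point_of_prime_not_dvd_card Ω (by rw [h21]; norm_num)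
  have hSP : ∀ z ∈ (S : Subgroup G), z • P = P := fun z hz => hP ⟨z, hz⟩
  have hfree : ∀ z ∈ (S : Subgroup G), ∀ R, z • R = R → R ≠ P → z = 1 := by
    intro z hz R hzR hR
    by_contra hz1
    obtain ⟨k, hk⟩ := S.2.exists_card_eq
    obtain ⟨i, -, hi⟩ := (Nat.dvd_prime_pow Nat.prime_two).mp (hk ▸ Subgroup.orderOf_dvd_natCard _ hz)
    have hi0 : i ≠ 0 := fun h => hz1 (orderOf_eq_one_iff.mp (by rw [hi, h, pow_zero]))
    have hw : orderOf (z ^ 2 ^ (i - 1)) = 2 := by
      rw [orderOf_pow' _ (by positivity), hi,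
        Nat.gcd_eq_right (pow_dvd_pow 2 (Nat.sub_le i 1)), Nat.pow_div (Nat.sub_le i 1) (by norm_num),
        show i - (i - 1) = 1 by omega, pow_one]
    refine not_fixes_two h21 hw ?_ hR ?_
    · exact (MulAction.stabilizer G P).pow_mem (hSP z hz) _
    · exact (MulAction.stabilizer G R).pow_mem hzR _
  -- `S` is a four-group
  have hS4 : Nat.card ↥(S : Subgroup G) = 4 := by
    have := Fintype.ofFinite ↥(S : Subgroup G)
    have := Fintype.ofFinite Ω
    have hb := MulAction.sum_card_fixedBy_eq_card_orbits_mul_card_group ↥(S : Subgroup G) Ω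
    have hf : ∀ z : ↥(S : Subgroup G), Fintype.card ↥(MulAction.fixedBy Ω z) =
        1 + if z = 1 then 20 else 0 := by
      intro z
      rw [← Nat.card_eq_fintype_card, Nat.card_coe_set_eq]
      split_ifs with h
      · subst h
        rw [MulAction.fixedBy_one_eq_univ, Set.ncard_univ, h21]
      · rw [show MulAction.fixedBy Ω z = {P} from Set.ext fun R => ⟨fun hR => by
          by_contra hne
          exact h (Subtype.ext (hfree z z.2 R hR hne)), fun hR => by
          rw [Set.mem_singleton_iff] at hR; subst hR; exact hSP z z.2⟩, Set.ncard_singleton]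
    rw [Finset.sum_congr rfl fun z _ => hf z, Finset.sum_add_distrib, Finset.sum_const,
      Finset.card_univ, smul_eq_mul, mul_one, Finset.sum_ite_eq' Finset.univ (1 : ↥(S : Subgroup G))
        fun _ => 20, if_pos (Finset.mem_univ _)] at hb
    have hd : Nat.card ↥(S : Subgroup G) ∣ 20 := by
      rw [Nat.card_eq_fintype_card]
      exact (Nat.dvd_add_right (dvd_refl _)).mp (hb ▸ dvd_mul_left _ _)
    obtain ⟨k, hk⟩ := S.2.exists_card_eq
    have h4S : 4 ∣ Nat.card ↥(S : Subgroup G) := S.pow_dvd_card_of_pow_dvd_card (n := 2) h4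
    have hle : Nat.card ↥(S : Subgroup G) ≤ 20 := Nat.le_of_dvd (by norm_num) hd
    have hk4 : k ≤ 4 := by
      by_contra hlt
      have := Nat.pow_le_pow_right (by norm_num : 1 ≤ 2) (by omega : 5 ≤ k)
      omega
    rw [hk] at hd h4S ⊢
    interval_cases k <;> revert hd h4S <;> decide
  have hexp : ∀ z ∈ (S : Subgroup G), z * z = 1 := by
    intro z hz
    have hd : orderOf z ∣ 2 ^ 2 := (Subgroup.orderOf_dvd_natCard _ hz).trans hS4.dvd
    obtain ⟨i, hi, he⟩ := (Nat.dvd_prime_pow Nat.prime_two).mp hd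
    rw [← pow_two]
    refine orderOf_dvd_iff_pow_eq_one.mp ?_
    interval_cases i
    · simp [he]
    · simp [he]
    · exfalso
      refine not_isCyclic_sylow_two hG (two_dvd_card h21) S
        (isCyclic_of_orderOf_eq_card ⟨z, hz⟩ ?_)
      rw [← Subgroup.orderOf_coe, he, hS4]
      norm_num
  have hinvol : ∀ z ∈ (S : Subgroup G), z ≠ 1 → orderOf z = 2 := fun z hz h1 =>
    orderOf_eq_prime (by rw [pow_two]; exact hexp z hz) h1
  have hSc : ∀ a ∈ (S : Subgroup G), ∀ b ∈ (S : Subgroup G), Commute a b := by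
    intro a ha b hb
    have h : ∀ c ∈ (S : Subgroup G), c⁻¹ = c := fun c hc =>
      inv_eq_of_mul_eq_one_right (hexp c hc)
    show a * b = b * a
    rw [← h (a * b) (mul_mem ha hb), mul_inv_rev, h a ha, h b hb]
  have hout : ∀ z ∈ (S : Subgroup G), z ≠ 1 → ∀ R, R ≠ P → z • R ∉ orb P R := by
    intro z hz hz1 R hR hmem
    obtain ⟨v, hv, hv'⟩ := mem_orb.mp hmem
    exact hz1 (hfree z hz _ (midpoint h21 (hinvol z hz hz1) (hSP z hz) hv hv'.symm)
      (point_ne_of_smul (pow_mem hv 3) hR))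
  have hmove : ∀ z ∈ (S : Subgroup G), z ≠ 1 → ∀ R, R ≠ P → z • R ≠ R := fun z hz hz1 R hR h =>
    hz1 (hfree z hz R h hR)
  -- elements of `P` centralized by an involution of `S` fix only `P`
  have hcent : ∀ z ∈ (S : Subgroup G), z ≠ 1 → ∀ u ∈ (P : Subgroup G), Commute z u →
      ∀ R, R ≠ P → u • R = R → u = 1 := by
    intro z hz hz1 u hu hc R hR huR
    refine eq_one_of_fixes_two h21 hR (fun e => hmove z hz hz1 R hR ?_) (hout z hz hz1 R hR) hu huR ?_
    · exfalso
      exact hR (smul_left_cancel z (e.trans (hSP z hz).symm))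
    · rw [smul_smul, ← hc.eq, mul_smul, huR]
  have hcent' : ∀ z ∈ (S : Subgroup G), z ≠ 1 → ∀ u ∈ (P : Subgroup G), Commute z u → u ≠ 1 →
      ∀ x ∈ (P : Subgroup G), Commute z x → ∃ a : ℕ, u ^ a = x := by
    intro z hz hz1 u hu hc hu1 x hx hcx
    obtain ⟨R, hR⟩ : ∃ R : Ω, R ≠ P := by
      by_contra h
      push Not at h
      have : Subsingleton Ω := ⟨fun A B => (h A).trans (h B).symm⟩
      rw [Nat.card_of_subsingleton P] at h21
      omega
    obtain ⟨a, ha⟩ := exists_pow_smul h21 hR hu (fun e => hu1 (hcent z hz hz1 u hu hc R hR e))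
      (mem_orb.mpr ⟨x, hx, rfl⟩)
    refine ⟨a, inv_mul_eq_one.mp (hcent z hz hz1 _ (mul_mem (inv_mem (pow_mem hu a)) hx)
      ((hc.pow_right a).inv_right.mul_right hcx) R hR ?_)⟩
    rw [mul_smul, ← ha, inv_smul_smul]
  -- fusion in the normalizer of `S`
  have hcomm : IsMulCommutative ↥(S : Subgroup G) :=
    ⟨⟨fun a b => Subtype.ext (hSc a a.2 b b.2)⟩⟩
  have hnorm : ∀ n ∈ normalizer ((S : Subgroup G) : Set G), ∀ u ∈ (P : Subgroup G),
      n * u * n⁻¹ ∈ (P : Subgroup G) := by
    intro n hn u hu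
    refine conj_mem_of_fixes ?_ hu
    by_contra hne
    obtain ⟨z, hz, hz1⟩ : ∃ z ∈ (S : Subgroup G), z ≠ 1 := by
      by_contra h
      push Not at h
      have : (S : Subgroup G) = ⊥ := (Subgroup.eq_bot_iff_forall _).mpr h
      rw [this, Subgroup.card_bot] at hS4
      omega
    have hz' : n⁻¹ * z * n ∈ (S : Subgroup G) := (Subgroup.mem_normalizer_iff''.mp hn z).mp hz
    refine hmove z hz hz1 (n • P) hne ?_
    rw [smul_smul, show z * n = n * (n⁻¹ * z * n) by group, mul_smul, hSP _ hz']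
  have hfuse : ∀ p : G → Prop, (∀ n ∈ normalizer ((S : Subgroup G) : Set G), ∀ z ∈ (S : Subgroup G),
      p z → p (n * z * n⁻¹)) → ∀ z ∈ (S : Subgroup G), z ≠ 1 → p z →
      ∀ y ∈ (S : Subgroup G), y ≠ 1 → p y := by
    intro p hp z hz hz1 hpz
    have hmv : ∀ x ∈ (S : Subgroup G), x ≠ 1 → ∃ n ∈ normalizer ((S : Subgroup G) : Set G),
        n * x * n⁻¹ ∈ (S : Subgroup G) ∧ n * x * n⁻¹ ≠ 1 ∧ n * x * n⁻¹ ≠ x := by
      intro x hx hx1
      by_contra h
      refine hx1 (eq_one_of_central_in_normalizer hG S hx fun n hn => mul_inv_eq_iff_eq_mul.mp ?_)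
      by_contra hne
      exact h ⟨n, hn, (Subgroup.mem_normalizer_iff.mp hn x).mp hx,
        fun e => hx1 (conj_eq_one_iff.mp e), hne⟩
    have hfour : ∀ a ∈ (S : Subgroup G), ∀ b ∈ (S : Subgroup G), a ≠ 1 → b ≠ 1 → b ≠ a →
        ∀ y ∈ (S : Subgroup G), y = 1 ∨ y = a ∨ y = b ∨ y = a * b := by
      intro a ha b hb ha1 hb1 hba y hy
      by_contra hcon
      push Not at hcon
      obtain ⟨y1, ya, yb, yab⟩ := hcon
      have hab1 : a * b ≠ 1 := fun e => hba (mul_left_cancel (e.trans (hexp a ha).symm))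
      have hsub : ({1, a, b, a * b, y} : Finset G) ⊆ ((S : Subgroup G) : Set G).toFinite.toFinset := by
        intro x hx
        simp only [Finset.mem_insert, Finset.mem_singleton] at hx
        simp only [Set.Finite.mem_toFinset, SetLike.mem_coe]
        rcases hx with rfl | rfl | rfl | rfl | rfl
        exacts [one_mem _, ha, hb, mul_mem ha hb, hy]
      have hcard := Finset.card_le_card hsub
      rw [← Set.ncard_eq_toFinset_card _ _, ← Nat.card_coe_set_eq] at hcard
      have hS4' : Nat.card ↥((S : Subgroup G) : Set G) = 4 := hS4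
      rw [hS4', Finset.card_insert_of_notMem (by simp [Ne.symm ha1, Ne.symm hb1, hab1.symm, Ne.symm y1]),
        Finset.card_insert_of_notMem (by simp [Ne.symm hba, hb1, Ne.symm ya]),
        Finset.card_insert_of_notMem (by simp [ha1, Ne.symm yb]),
        Finset.card_insert_of_notMem (by simp [Ne.symm yab]), Finset.card_singleton] at hcard
      omega
    obtain ⟨n, hn, hbS, hb1, hbz⟩ := hmv z hz hz1
    set b := n * z * n⁻¹
    have hzb1 : z * b ≠ 1 := fun e => hbz (mul_left_cancel (e.trans (hexp z hz).symm))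
    have hpb : p b := hp n hn z hz hpz
    intro y hy hy1
    rcases hfour z hz b hbS hz1 hb1 hbz y hy with h | h | h | h
    · exact absurd h hy1
    · exact h ▸ hpz
    · exact h ▸ hpb
    · subst h
      obtain ⟨m, hm, hcS, hc1, hcne⟩ := hmv (z * b) hy hy1
      have hinv : ∀ x ∈ (S : Subgroup G), m * (z * b) * m⁻¹ = x → p x → p (z * b) := by
        intro x hx he hpx
        have := hp m⁻¹ (inv_mem hm) x hx hpx
        rwa [← he, show m⁻¹ * (m * (z * b) * m⁻¹) * m⁻¹⁻¹ = z * b by group] at this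
      rcases hfour z hz b hbS hz1 hb1 hbz _ hcS with h | h | h | h
      · exact absurd h hc1
      · exact hinv z hz h hpz
      · exact hinv b hbS h hpb
      · exact absurd h hcne
  have hpres : ∀ n ∈ normalizer ((S : Subgroup G) : Set G), ∀ z : G, ∀ u ∈ (P : Subgroup G),
      Commute (n * z * n⁻¹) u → Commute z (n⁻¹ * u * n) := by
    intro n _ z u _ hc
    show z * (n⁻¹ * u * n) = n⁻¹ * u * n * z
    calc z * (n⁻¹ * u * n) = n⁻¹ * ((n * z * n⁻¹) * u) * n := by group
      _ = n⁻¹ * (u * (n * z * n⁻¹)) * n := by rw [hc.eq]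
      _ = n⁻¹ * u * n * z := by group
  have hback : ∀ n ∈ normalizer ((S : Subgroup G) : Set G), ∀ u ∈ (P : Subgroup G),
      n⁻¹ * u * n ∈ (P : Subgroup G) := fun n hn u hu => by
    simpa using hnorm n⁻¹ (inv_mem hn) u hu
  by_cases hA : ∃ z ∈ (S : Subgroup G), z ≠ 1 ∧ ∀ u ∈ (P : Subgroup G), Commute z u
  · -- `S` centralizes `P`, so `|P| = 5` and `|N(P) : C(P)|` is odd
    obtain ⟨z, hz, hz1, hzc⟩ := hA
    have hall := hfuse (fun z => ∀ u ∈ (P : Subgroup G), Commute z u) (fun n hn x hx hxc u hu => by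
      show n * x * n⁻¹ * u = u * (n * x * n⁻¹)
      calc n * x * n⁻¹ * u = n * (x * (n⁻¹ * u * n)) * n⁻¹ := by group
        _ = n * ((n⁻¹ * u * n) * x) * n⁻¹ := by rw [(hxc _ (hback n hn u hu)).eq]
        _ = u * (n * x * n⁻¹) := by group) z hz hz1 hzc
    have hSC : (S : Subgroup G) ≤ centralizer ((P : Subgroup G) : Set G) := fun x hx u hu => by
      by_cases hx1 : x = 1
      · simp [hx1]
      · exact (hall x hx hx1 u hu).eq.symm
    have hP5 : Nat.card ↥(P : Subgroup G) = 5 := by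
      obtain ⟨R, hR⟩ : ∃ R : Ω, R ≠ P := by
        by_contra h
        push Not at h
        have : Subsingleton Ω := ⟨fun A B => (h A).trans (h B).symm⟩
        rw [Nat.card_of_subsingleton P] at h21
        omega
      have hbot : MulAction.stabilizer ↥(P : Subgroup G) R = ⊥ :=
        (Subgroup.eq_bot_iff_forall _).mpr fun u hu =>
          Subtype.ext (hcent z hz hz1 u u.2 (hzc u u.2) R hR hu)
      have := (stabilizer_props h21 hR).1
      rwa [hbot, index_bot] at this
    obtain ⟨hk, hk1⟩ := relIndex_centralizer_prime hG P hP5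
    have hodd : ¬ 2 ∣ (centralizer ((P : Subgroup G) : Set G)).relIndex
        (normalizer ((P : Subgroup G) : Set G)) := fun hd => by
      refine S.not_dvd_index (hd.trans ?_)
      exact (relIndex_dvd_index_of_le (centralizer_le_normalizer _) |> fun h => h).trans
        (Subgroup.index_dvd_of_le hSC)
    set k := (centralizer ((P : Subgroup G) : Set G)).relIndex
      (normalizer ((P : Subgroup G) : Set G))
    have hk4 : k ∈ Nat.divisors 4 := Nat.mem_divisors.mpr ⟨hk, by norm_num⟩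
    have key : ∀ e ∈ Nat.divisors 4, e ≠ 1 → 2 ∣ e := by decide
    exact hodd (key k hk4 hk1)
  push Not at hA
  -- every involution of `S` centralizes some, but not every, element of `P`
  have hB : ∀ z ∈ (S : Subgroup G), z ≠ 1 → ∃ u ∈ (P : Subgroup G), u ≠ 1 ∧ Commute z u := by
    by_contra h
    push Not at h
    obtain ⟨z, hz, hz1, hno⟩ := h
    have hnone := hfuse (fun z => ∀ u ∈ (P : Subgroup G), u ≠ 1 → ¬ Commute z u)
      (fun n hn x hx hxc u hu hu1 hc => hxc _ (hback n hn u hu)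
        (fun e => hu1 (by
          calc u = n * (n⁻¹ * u * n) * n⁻¹ := by group
            _ = 1 := by rw [e]; group)) (hpres n hn x u hu hc)) z hz hz1 hno
    have hinvert : ∀ x ∈ (S : Subgroup G), x ≠ 1 → ∀ u ∈ (P : Subgroup G), x * u * x⁻¹ = u⁻¹ := by
      intro x hx hx1 u hu
      have hu' := conj_mem_of_fixes (hSP x hx) hu
      have hc : Commute x (u * (x * u * x⁻¹)) := by
        show x * (u * (x * u * x⁻¹)) = u * (x * u * x⁻¹) * x
        have hxx : x⁻¹ = x := inv_eq_of_mul_eq_one_right (hexp x hx)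
        calc x * (u * (x * u * x⁻¹)) = (x * u * x⁻¹) * (x * (x * u * x⁻¹) * x⁻¹) * x := by group
          _ = (x * u * x⁻¹) * u * x := by
              congr 2
              calc x * (x * u * x⁻¹) * x⁻¹ = (x * x) * u * (x⁻¹ * x⁻¹) := by group
                _ = u := by rw [hxx, hexp x hx, one_mul, mul_one]
          _ = u * (x * u * x⁻¹) * x := by rw [(commute_of_mem h21 hu' hu).eq]
      have h1 : u * (x * u * x⁻¹) = 1 := by
        by_contra h1
        exact hnone x hx hx1 _ (mul_mem hu hu') h1 hc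
      exact (inv_eq_of_mul_eq_one_right h1).symm
    obtain ⟨n, hn, hbS, hb1, hbz⟩ : ∃ n ∈ normalizer ((S : Subgroup G) : Set G),
        n * z * n⁻¹ ∈ (S : Subgroup G) ∧ n * z * n⁻¹ ≠ 1 ∧ n * z * n⁻¹ ≠ z := by
      by_contra h
      refine hz1 (eq_one_of_central_in_normalizer hG S hz fun n hn => mul_inv_eq_iff_eq_mul.mp ?_)
      by_contra hne
      exact h ⟨n, hn, (Subgroup.mem_normalizer_iff.mp hn z).mp hz,
        fun e => hz1 (conj_eq_one_iff.mp e), hne⟩
    set b := n * z * n⁻¹
    obtain ⟨u, hu, hu1, hnc⟩ : ∃ u ∈ (P : Subgroup G), u ≠ 1 ∧ ¬ Commute z u := by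
      obtain ⟨u, hu, hnc⟩ := hA z hz hz1
      exact ⟨u, hu, fun e => hnc (e ▸ Commute.one_right z), hnc⟩
    have hzb1 : z * b ≠ 1 := fun e => hbz (mul_left_cancel (e.trans (hexp z hz).symm))
    refine hnone (z * b) (mul_mem hz hbS) hzb1 u hu hu1 ?_
    show z * b * u = u * (z * b)
    have e1 : b * u * b⁻¹ = u⁻¹ := hinvert b hbS hb1 u hu
    have e2 : z * u⁻¹ * z⁻¹ = u := by rw [hinvert z hz hz1 u⁻¹ (inv_mem hu), inv_inv]
    calc z * b * u = z * (b * u * b⁻¹) * z⁻¹ * (z * b) := by group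
      _ = u * (z * b) := by rw [e1, e2]
  -- eigenvalues: each involution inverts or centralizes the fixed line of another one
  have hline : ∀ x ∈ (S : Subgroup G), x ≠ 1 → ∀ y ∈ (S : Subgroup G), ∀ c ∈ (P : Subgroup G),
      c ≠ 1 → Commute x c → y * c * y⁻¹ = c ∨ y * c * y⁻¹ = c⁻¹ := by
    intro x hx hx1 y hy c hc hc1 hxc
    have hyc := conj_mem_of_fixes (hSP y hy) hc
    have hxy : Commute x (y * c * y⁻¹) :=
      ((hSc x hx y hy).mul_right hxc).mul_right (hSc x hx y hy).inv_right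
    obtain ⟨a, ha⟩ := hcent' x hx hx1 c hc hxc hc1 _ hyc hxy
    have h2 : c ^ (a * a) = c := by
      have hyy : y * y = 1 := hexp y hy
      calc c ^ (a * a) = (y * c * y⁻¹) ^ a := by rw [pow_mul, ha]
        _ = y * c ^ a * y⁻¹ := conj_pow
        _ = (y * y) * c * (y * y)⁻¹ := by rw [ha]; group
        _ = c := by rw [hyy]; group
    have hord : orderOf c = 5 := orderOf_eq_prime (pow_five h21 hc) hc1
    have hmod : a * a % 5 = 1 := by
      have h3 : c ^ (a * a) = c ^ 1 := by rw [pow_one]; exact h2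
      rw [pow_inj_mod, hord] at h3
      exact h3
    rw [← ha, ← pow_mod_orderOf, hord]
    have : a % 5 < 5 := Nat.mod_lt _ (by norm_num)
    rw [Nat.mul_mod] at hmod
    interval_cases h : a % 5 <;> simp at hmod ⊢
    · right
      refine eq_inv_of_mul_eq_one_left ?_
      rw [← pow_succ, pow_five h21 hc]
  obtain ⟨R, hR⟩ : ∃ R : Ω, R ≠ P := by
    by_contra h
    push Not at h
    have : Subsingleton Ω := ⟨fun A B => (h A).trans (h B).symm⟩
    rw [Nat.card_of_subsingleton P] at h21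
    omega
  obtain ⟨z, hz, hz1⟩ : ∃ z ∈ (S : Subgroup G), z ≠ 1 := by
    by_contra h
    push Not at h
    have : (S : Subgroup G) = ⊥ := (Subgroup.eq_bot_iff_forall _).mpr h
    rw [this, Subgroup.card_bot] at hS4
    omega
  obtain ⟨y, hy, hy1, hyz⟩ : ∃ y ∈ (S : Subgroup G), y ≠ 1 ∧ y ≠ z := by
    by_contra h
    push Not at h
    have hsub : ((S : Subgroup G) : Set G) ⊆ {1, z} := fun x hx => by
      by_cases hx1 : x = 1
      · exact .inl hx1
      · exact .inr (h x hx hx1)
    have := Set.ncard_le_ncard hsub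
    rw [← Nat.card_coe_set_eq] at this
    have hle := Set.ncard_insert_le (1 : G) {z}
    rw [Set.ncard_singleton] at hle
    have hS4' : Nat.card ↥((S : Subgroup G) : Set G) = 4 := hS4
    omega
  set x := z * y
  have hx : x ∈ (S : Subgroup G) := mul_mem hz hy
  have hx1 : x ≠ 1 := fun e => hyz (mul_left_cancel (e.trans (hexp z hz).symm))
  obtain ⟨c₁, hc₁, hc₁1, hzc₁⟩ := hB z hz hz1
  obtain ⟨c₂, hc₂, hc₂1, hyc₂⟩ := hB y hy hy1
  obtain ⟨c₃, hc₃, hc₃1, hxc₃⟩ := hB x hx hx1
  have hxconj : ∀ u : G, x * u * x⁻¹ = z * (y * u * y⁻¹) * z⁻¹ := fun u => by simp only [x]; group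
  have hself : ∀ u ∈ (P : Subgroup G), u⁻¹ = u → u = 1 := fun u hu h => by
    have h2 : u ^ 2 = 1 := by rw [pow_two]; exact mul_eq_one_iff_eq_inv.mpr h.symm
    calc u = u ^ 5 * ((u ^ 2) ^ 2)⁻¹ := by group
      _ = 1 := by rw [pow_five h21 hu, h2]; group
  have hkey : y * c₁ * y⁻¹ = c₁⁻¹ := by
    refine (hline z hz hz1 y hy c₁ hc₁ hc₁1 hzc₁).resolve_left fun hcy => ?_
    -- all three involutions centralize `c₁`; then `z` centralizes `P`
    have hyc : Commute y c₁ := mul_inv_eq_iff_eq_mul.mp hcy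
    obtain ⟨u, hu, hnc⟩ := hA z hz hz1
    have hu' := conj_mem_of_fixes (hSP z hz) hu
    obtain ⟨b, hbdef⟩ : ∃ b, b = u * (z * u * z⁻¹)⁻¹ := ⟨_, rfl⟩
    have hb : b ∈ (P : Subgroup G) := hbdef ▸ mul_mem hu (inv_mem hu')
    have hzb : z * b * z⁻¹ = b⁻¹ := by
      have hzz : z⁻¹ = z := inv_eq_of_mul_eq_one_right (hexp z hz)
      calc z * b * z⁻¹ = (z * u * z⁻¹) * ((z * z) * u * (z⁻¹ * z⁻¹))⁻¹ := by rw [hbdef]; group
        _ = (z * u * z⁻¹) * u⁻¹ := by rw [hzz, hexp z hz]; group
        _ = b⁻¹ := by rw [hbdef]; group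
    have hyb' := conj_mem_of_fixes (hSP y hy) hb
    have hbc : Commute y (b * (y * b * y⁻¹)) := by
      have hyy : y⁻¹ = y := inv_eq_of_mul_eq_one_right (hexp y hy)
      show y * (b * (y * b * y⁻¹)) = b * (y * b * y⁻¹) * y
      calc y * (b * (y * b * y⁻¹)) = (y * b * y⁻¹) * ((y * y) * b * (y⁻¹ * y⁻¹)) * y := by group
        _ = (y * b * y⁻¹) * b * y := by rw [hyy, hexp y hy]; group
        _ = b * (y * b * y⁻¹) * y := by rw [(commute_of_mem h21 hyb' hb).eq]
    obtain ⟨i, hi⟩ := hcent' y hy hy1 c₁ hc₁ hyc hc₁1 _ (mul_mem hb hyb') hbc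
    have hyb : y * b * y⁻¹ = b⁻¹ := by
      have h1 : z * (b * (y * b * y⁻¹)) * z⁻¹ = b * (y * b * y⁻¹) := by
        rw [← hi, (hzc₁.pow_right i).eq, mul_inv_cancel_right]
      have h2 : z * (b * (y * b * y⁻¹)) * z⁻¹ = (b * (y * b * y⁻¹))⁻¹ := by
        calc z * (b * (y * b * y⁻¹)) * z⁻¹ = (z * b * z⁻¹) * ((z * y) * b * (z * y)⁻¹) := by group
          _ = (z * b * z⁻¹) * (y * (z * b * z⁻¹) * y⁻¹) := by rw [(hSc z hz y hy).eq]; group
          _ = b⁻¹ * (y * b * y⁻¹)⁻¹ := by rw [hzb]; group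
          _ = (b * (y * b * y⁻¹))⁻¹ :=
              (commute_of_mem h21 hb hyb').inv_inv.eq.trans (mul_inv_rev _ _).symm
      exact (inv_eq_of_mul_eq_one_right (hself _ (mul_mem hb hyb') (h2.symm.trans h1))).symm
    have hxb : x * b * x⁻¹ = b := by
      rw [hxconj, hyb]
      calc z * b⁻¹ * z⁻¹ = (z * b * z⁻¹)⁻¹ := by group
        _ = b := by rw [hzb, inv_inv]
    obtain ⟨j, hj⟩ := hcent' x hx hx1 c₁ hc₁ (hzc₁.mul_left hyc) hc₁1 b hb
      (mul_inv_eq_iff_eq_mul.mp hxb)
    have hb1 : b = 1 := hself b hb (by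
      rw [← hzb, ← hj, (hzc₁.pow_right j).eq, mul_inv_cancel_right])
    exact hnc (show z * u = u * z from by
      have := mul_inv_eq_one.mp (hbdef ▸ hb1)
      conv_rhs => rw [this]
      group)
  have hkey2 : z * c₂ * z⁻¹ = c₂⁻¹ := by
    refine (hline y hy hy1 z hz c₂ hc₂ hc₂1 hyc₂).resolve_left fun hcz => ?_
    -- then `c₂` is a power of `c₁`
    obtain ⟨i, hi⟩ := hcent' z hz hz1 c₁ hc₁ hzc₁ hc₁1 c₂ hc₂ (mul_inv_eq_iff_eq_mul.mp hcz)
    have h1 : y * c₂ * y⁻¹ = c₂⁻¹ := by rw [← hi, ← conj_pow, hkey, inv_pow]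
    have h2 : y * c₂ * y⁻¹ = c₂ := by rw [hyc₂.eq, mul_inv_cancel_right]
    exact hc₂1 (hself c₂ hc₂ (h1.symm.trans h2))
  have hxinv : ∀ c, (c = c₁ ∨ c = c₂) → x * c * x⁻¹ = c⁻¹ := by
    intro c hc
    rcases hc with h | h <;> rw [h]
    · rw [hxconj, hkey]
      calc z * c₁⁻¹ * z⁻¹ = (z * c₁ * z⁻¹)⁻¹ := by group
        _ = c₁⁻¹ := by rw [hzc₁.eq, mul_inv_cancel_right]
    · rw [hxconj, hyc₂.eq, mul_inv_cancel_right, hkey2]
  -- `c₁, c₂` generate `P`
  obtain ⟨a, b, hab⟩ : ∃ a b : ℕ, c₁ ^ a * c₂ ^ b = c₃ := by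
    have hmv₁ : c₁ • R ≠ R := fun e => hc₁1 (hcent z hz hz1 c₁ hc₁ hzc₁ R hR e)
    obtain ⟨R', hR'P, hR'⟩ := exists_two_orbits h21 hR
    -- the element `c₁ ^ (-i) * c₂` fixes `R`
    obtain ⟨i, hi⟩ := exists_pow_smul h21 hR hc₁ hmv₁ (mem_orb.mpr ⟨c₂, hc₂, rfl⟩)
    set w := (c₁ ^ i)⁻¹ * c₂
    have hw : w ∈ (P : Subgroup G) := mul_mem (inv_mem (pow_mem hc₁ i)) hc₂
    have hwR : w • R = R := by rw [mul_smul, ← hi, inv_smul_smul]
    have hw1 : w ≠ 1 := fun e => by
      have he : c₁ ^ i = c₂ := inv_mul_eq_one.mp e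
      have h1 : y * c₂ * y⁻¹ = c₂⁻¹ := by rw [← he, ← conj_pow, hkey, inv_pow]
      rw [hyc₂.eq, mul_inv_cancel_right] at h1
      exact hc₂1 (hself c₂ hc₂ h1.symm)
    have hwR' : w • R' ≠ R' := fun e => hw1 (eq_one_of_fixes_two h21 hR hR'P hR' hw hwR e)
    obtain ⟨j, hj⟩ := exists_pow_smul h21 hR hc₁ hmv₁ (mem_orb.mpr ⟨c₃, hc₃, rfl⟩)
    set v := (c₁ ^ j)⁻¹ * c₃
    have hv : v ∈ (P : Subgroup G) := mul_mem (inv_mem (pow_mem hc₁ j)) hc₃
    have hvR : v • R = R := by rw [mul_smul, ← hj, inv_smul_smul]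
    obtain ⟨l, hl⟩ := exists_pow_smul h21 hR'P hw hwR' (mem_orb.mpr ⟨v, hv, rfl⟩)
    have hvw : w ^ l = v := inv_mul_eq_one.mp
      (eq_one_of_fixes_two h21 hR hR'P hR' (mul_mem (inv_mem (pow_mem hw l)) hv)
        (by rw [mul_smul, hvR, inv_smul_eq_iff]
            exact ((MulAction.stabilizer G R).pow_mem hwR l).symm)
        (by rw [mul_smul, ← hl, inv_smul_smul]))
    refine ⟨j + i * l * 4, l, ?_⟩
    have hwl : w ^ l = (c₁ ^ i)⁻¹ ^ l * c₂ ^ l :=
      (commute_of_mem h21 (inv_mem (pow_mem hc₁ i)) hc₂).mul_pow l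
    have hinv4 : (c₁ ^ i)⁻¹ ^ l = c₁ ^ (i * l * 4) := by
      rw [inv_pow, ← pow_mul, inv_eq_iff_mul_eq_one, ← pow_add,
        show i * l + i * l * 4 = 5 * (i * l) by ring, pow_mul, pow_five h21 hc₁, one_pow]
    rw [pow_add, mul_assoc, ← hinv4, ← hwl, hvw, mul_inv_cancel_left]
  have hinv3 : x * c₃ * x⁻¹ = c₃⁻¹ := by
    rw [← hab]
    calc x * (c₁ ^ a * c₂ ^ b) * x⁻¹ = (x * c₁ * x⁻¹) ^ a * (x * c₂ * x⁻¹) ^ b := by
          rw [conj_pow, conj_pow]; group
      _ = c₁⁻¹ ^ a * c₂⁻¹ ^ b := by rw [hxinv c₁ (.inl rfl), hxinv c₂ (.inr rfl)]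
      _ = (c₁ ^ a * c₂ ^ b)⁻¹ := by
          rw [(commute_of_mem h21 (pow_mem hc₁ a) (pow_mem hc₂ b)).eq, mul_inv_rev, inv_pow, inv_pow]
  rw [hxc₃.eq, mul_inv_cancel_right] at hinv3
  exact hc₃1 (hself c₃ hc₃ hinv3.symm)

end Cfsg.Agent.SmallGroups.TwentyOne
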